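import Mathlib

set_option autoImplicit false

/-!
# A combinatorial lemma on rectangular arrays of norm-three integer vectors
(the combinatorial heart of the cyclic TI isometry)
-/

namespace Cfsg.Agent.Lib.Helper3.Arr

variable {X : Type*} [Fintype X] [DecidableEq X]

/-- dot product of integer vectors -/
def dot (f g : X → ℤ) : ℤ := ∑ x, f x * g x

omit [DecidableEq X] in
theorem dot_comm (f g : X → ℤ) : dot f g = dot g f := by
  unfold dot
  exact Finset.sum_congr rfl fun x _ => mul_comm _ _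

omit [DecidableEq X] in
theorem val_of_norm3 {f : X → ℤ} (h : dot f f = 3) (x : X) : f x = 0 ∨ f x = 1 ∨ f x = -1 := by
  have h1 : f x * f x ≤ 3 := by
    rw [← h]
    exact Finset.single_le_sum (f := fun y => f y * f y) (fun y _ => mul_self_nonneg _)
      (Finset.mem_univ x)
  have h2 : f x < 2 := by nlinarith
  have h3 : -2 < f x := by nlinarith
  omega

omit [DecidableEq X] in
theorem sq_of_ne_zero {f : X → ℤ} (h : dot f f = 3) {x : X} (hx : f x ≠ 0) : f x * f x = 1 := by
  rcases val_of_norm3 h x with h1 | h1 | h1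
  · exact absurd h1 hx
  · rw [h1]; rfl
  · rw [h1]; rfl

/-- if the squares at `x` already exhaust the norm, everything else vanishes -/
theorem eq_zero_of_sq_sum {F : X → ℤ} {n : ℤ} (h : dot F F = n) (s : Finset X)
    (hs : ∑ x ∈ s, F x * F x = n) {y : X} (hy : y ∉ s) : F y = 0 := by
  have h1 : ∑ x ∈ s, F x * F x + ∑ x ∈ sᶜ, F x * F x = n := by
    rw [Finset.sum_add_sum_compl]; exact h
  have h2 : ∑ x ∈ sᶜ, F x * F x = 0 := by linarith
  rw [Finset.sum_eq_zero_iff_of_nonneg (fun x _ => mul_self_nonneg _)] at h2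
  have := h2 y (Finset.mem_compl.mpr hy)
  exact mul_self_eq_zero.mp this

/-- Two vectors "on a line". -/
structure Rel (d A B : X → ℤ) : Prop where
  nA : dot A A = 3
  nB : dot B B = 3
  dAB : dot A B = 1
  deg : dot A d = dot B d

namespace Rel

variable {d A B : X → ℤ}

omit [DecidableEq X] in
theorem symm (h : Rel d A B) : Rel d B A :=
  ⟨h.nB, h.nA, by rw [dot_comm]; exact h.dAB, h.deg.symm⟩

theorem mul_nonneg (h : Rel d A B) (hd : ∀ x, d x ≠ 0) (x : X) : 0 ≤ A x * B x := by
  by_contra hneg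
  push Not at hneg
  have hD : dot (fun y => A y - B y) (fun y => A y - B y) = 4 := by
    have h1 : ∀ y, (A y - B y) * (A y - B y) = A y * A y - 2 * (A y * B y) + B y * B y := by
      intro y; ring
    unfold dot
    simp_rw [h1, Finset.sum_add_distrib, Finset.sum_sub_distrib, ← Finset.mul_sum]
    have := h.nA; have := h.nB; have := h.dAB
    unfold dot at *
    linarith
  have hx : (A x - B x) * (A x - B x) = 4 := by
    rcases val_of_norm3 h.nA x with h1 | h1 | h1 <;> rcases val_of_norm3 h.nB x with h2 | h2 | h2 <;>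
      rw [h1, h2] at hneg ⊢ <;> first | (norm_num at hneg; done) | norm_num
  have hz : ∀ y, y ≠ x → A y - B y = 0 := by
    intro y hy
    exact eq_zero_of_sq_sum hD {x} (by simpa using hx) (by simpa using hy)
  have hdeg : dot (fun y => A y - B y) d = 0 := by
    have := h.deg
    unfold dot at *
    simp_rw [sub_mul, Finset.sum_sub_distrib]
    linarith
  unfold dot at hdeg
  rw [Finset.sum_eq_single x (fun y _ hy => by
    show (A y - B y) * d y = 0
    rw [hz y hy, zero_mul])
    (fun hh => absurd (Finset.mem_univ x) hh)] at hdeg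
  rcases mul_eq_zero.mp hdeg with h1 | h1
  · have h1' : A x - B x = 0 := h1
    rw [h1'] at hx; norm_num at hx
  · exact hd x h1

theorem mul_eq_one (h : Rel d A B) (hd : ∀ x, d x ≠ 0) {x : X} (hA : A x ≠ 0) (hB : B x ≠ 0) :
    A x * B x = 1 := by
  have h0 := h.mul_nonneg hd x
  rcases val_of_norm3 h.nA x with h1 | h1 | h1 <;> rcases val_of_norm3 h.nB x with h2 | h2 | h2 <;>
    simp_all

theorem eq_of_ne_zero (h : Rel d A B) (hd : ∀ x, d x ≠ 0) {x : X} (hA : A x ≠ 0) (hB : B x ≠ 0) :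
    A x = B x := by
  have h0 := h.mul_nonneg hd x
  rcases val_of_norm3 h.nA x with h1 | h1 | h1 <;> rcases val_of_norm3 h.nB x with h2 | h2 | h2 <;>
    simp_all

omit [DecidableEq X] in
theorem exists_common (h : Rel d A B) : ∃ x, A x ≠ 0 ∧ B x ≠ 0 := by
  by_contra hcon
  push Not at hcon
  have := h.dAB
  unfold dot at this
  rw [Finset.sum_eq_zero] at this
  · norm_num at this
  · intro x _
    by_cases hA : A x = 0
    · rw [hA, zero_mul]
    · rw [hcon x hA, mul_zero]

theorem common_unique (h : Rel d A B) (hd : ∀ x, d x ≠ 0) {x y : X} (hAx : A x ≠ 0) (hBx : B x ≠ 0)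
    (hAy : A y ≠ 0) (hBy : B y ≠ 0) : x = y := by
  by_contra hne
  have h1 : ∑ z ∈ ({x, y} : Finset X), A z * B z ≤ ∑ z, A z * B z :=
    Finset.sum_le_sum_of_subset_of_nonneg (Finset.subset_univ _) (fun z _ _ => h.mul_nonneg hd z)
  rw [Finset.sum_pair hne, h.mul_eq_one hd hAx hBx, h.mul_eq_one hd hAy hBy] at h1
  have := h.dAB
  unfold dot at this
  omega

end Rel

/-- The key step: the "Pasch configuration" is excluded by a parity argument. -/
theorem sunflower_aux {d A A' B B' v : X → ℤ} (hd : ∀ x, d x ≠ 0) (σ : X → X)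
    (hAA' : Rel d A A') (hBB' : Rel d B B') (hAB : Rel d A B) (hAB' : Rel d A B')
    (hA'B : Rel d A' B) (hA'B' : Rel d A' B')
    (hσA : ∀ x, A' (σ x) = A x) (hσA' : ∀ x, A (σ x) = A' x)
    (hσB : ∀ x, B' (σ x) = B x) (hσB' : ∀ x, B (σ x) = B' x)
    (hvA : dot v A = 1) (hvA' : dot v A' = 0) (hvB : dot v B = 0) (hvB' : dot v B' = 0)
    {x u : X} (hx : A x ≠ 0) (hx' : A' x ≠ 0) (hu : B u ≠ 0) (hu' : B' u ≠ 0) : x = u := by
  by_contra hne
  have hσx : σ x = x :=
    hAA'.common_unique hd (by rw [hσA']; exact hx') (by rw [hσA]; exact hx) hx hx'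
  have hσu : σ u = u :=
    hBB'.common_unique hd (by rw [hσB']; exact hu') (by rw [hσB]; exact hu) hu hu'
  have hBB'x : B' x = B x := by
    have := hσB x
    rwa [hσx] at this
  have hAA'u : A' u = A u := by
    have := hσA u
    rwa [hσu] at this
  have hBx : B x = 0 := by
    by_contra h
    exact hne (hBB'.common_unique hd h (by rw [hBB'x]; exact h) hu hu')
  have hB'x : B' x = 0 := by rw [hBB'x, hBx]
  have hAu : A u = 0 := by
    by_contra h
    exact hne (hAA'.common_unique hd hx hx' h (by rw [hAA'u]; exact h))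
  have hA'u : A' u = 0 := by rw [hAA'u, hAu]
  set F : X → ℤ := fun y => A y + A' y - B y - B' y with hFdef
  have hF : dot F F = 8 := by
    have h1 : ∀ y, F y * F y = A y * A y + A' y * A' y + B y * B y + B' y * B' y
        + 2 * (A y * A' y) + 2 * (B y * B' y) - 2 * (A y * B y) - 2 * (A y * B' y)
        - 2 * (A' y * B y) - 2 * (A' y * B' y) := by
      intro y; simp only [hFdef]; ring
    unfold dot
    simp_rw [h1, Finset.sum_sub_distrib, Finset.sum_add_distrib, ← Finset.mul_sum]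
    have e1 := hAA'.nA; have e2 := hAA'.nB; have e3 := hBB'.nA; have e4 := hBB'.nB
    have e5 := hAA'.dAB; have e6 := hBB'.dAB; have e7 := hAB.dAB; have e8 := hAB'.dAB
    have e9 := hA'B.dAB; have e10 := hA'B'.dAB
    unfold dot at *
    linarith
  have hFx : F x = 2 * A x := by
    simp only [hFdef]
    rw [hBx, hB'x, ← hAA'.eq_of_ne_zero hd hx hx']; ring
  have hFu : F u = -2 * B u := by
    simp only [hFdef]
    rw [hAu, hA'u, ← hBB'.eq_of_ne_zero hd hu hu']; ring
  have hz : ∀ y, y ∉ ({x, u} : Finset X) → F y = 0 := by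
    intro y hy
    refine eq_zero_of_sq_sum hF {x, u} ?_ hy
    rw [Finset.sum_pair hne, hFx, hFu]
    have h1 := sq_of_ne_zero hAA'.nA hx
    have h2 := sq_of_ne_zero hBB'.nA hu
    nlinarith
  have hvF : dot v F = 1 := by
    have h1 : ∀ y, v y * F y = v y * A y + v y * A' y - v y * B y - v y * B' y := by
      intro y; simp only [hFdef]; ring
    unfold dot at *
    simp_rw [h1, Finset.sum_sub_distrib, Finset.sum_add_distrib]
    linarith
  have hvF2 : dot v F = v x * F x + v u * F u := by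
    unfold dot
    rw [← Finset.sum_pair (f := fun y => v y * F y) hne]
    symm
    apply Finset.sum_subset (Finset.subset_univ _)
    intro y _ hy
    rw [hz y hy, mul_zero]
  rw [hvF, hFx, hFu] at hvF2
  have : (1 : ℤ) = 2 * (v x * A x - v u * B u) := by rw [hvF2]; ring
  omega

/-- decomposition of a norm three vector, two of whose support points are known -/
theorem norm3_decomp {f : X → ℤ} (h : dot f f = 3) {a b : X} (hab : a ≠ b) (fa : f a ≠ 0)
    (fb : f b ≠ 0) : ∃ c, c ≠ a ∧ c ≠ b ∧ f c ≠ 0 ∧ ∀ x, x ≠ a → x ≠ b → x ≠ c → f x = 0 := by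
  have hex : ∃ c, c ∉ ({a, b} : Finset X) ∧ f c ≠ 0 := by
    by_contra hcon
    push Not at hcon
    have h1 : dot f f = ∑ x ∈ ({a, b} : Finset X), f x * f x := by
      unfold dot
      symm
      apply Finset.sum_subset (Finset.subset_univ _)
      intro y _ hy
      rw [hcon y hy, mul_zero]
    rw [Finset.sum_pair hab, sq_of_ne_zero h fa, sq_of_ne_zero h fb, h] at h1
    norm_num at h1
  obtain ⟨c, hc, fc⟩ := hex
  have hca : c ≠ a := fun hh => hc (by simp [hh])
  have hcb : c ≠ b := fun hh => hc (by simp [hh])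
  refine ⟨c, hca, hcb, fc, fun x hxa hxb hxc => ?_⟩
  refine eq_zero_of_sq_sum h {a, b, c} ?_ (by simp [hxa, hxb, hxc])
  rw [Finset.sum_insert (by simp [hab, hca.symm]), Finset.sum_pair hcb.symm, sq_of_ne_zero h fa,
    sq_of_ne_zero h fb, sq_of_ne_zero h fc]
  norm_num

/-- The hypotheses on the rectangular array. -/
structure IsArr {I J : Type*} (d : X → ℤ) (γ : I → J → X → ℤ) (νI : I → I) (νJ : J → J)
    (σI σJ : X → X) : Prop where
  d_ne : ∀ x, d x ≠ 0
  norm : ∀ i j, dot (γ i j) (γ i j) = 3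
  row : ∀ i j l, j ≠ l → dot (γ i j) (γ i l) = 1
  col : ∀ i k j, i ≠ k → dot (γ i j) (γ k j) = 1
  off : ∀ i k j l, i ≠ k → j ≠ l → dot (γ i j) (γ k l) = 0
  deg : ∀ i j k l, dot (γ i j) d = dot (γ k l) d
  νI_ne : ∀ i, νI i ≠ i
  νI_inv : ∀ i, νI (νI i) = i
  νJ_ne : ∀ j, νJ j ≠ j
  νJ_inv : ∀ j, νJ (νJ j) = j
  σI_spec : ∀ i j x, γ (νI i) j (σI x) = γ i j x
  σJ_spec : ∀ i j x, γ i (νJ j) (σJ x) = γ i j x

namespace IsArr

variable {I J : Type*} {d : X → ℤ} {γ : I → J → X → ℤ} {νI : I → I} {νJ : J → J} {σI σJ : X → X}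

omit [DecidableEq X] in
theorem transpose (h : IsArr d γ νI νJ σI σJ) : IsArr d (fun j i => γ i j) νJ νI σJ σI where
  d_ne := h.d_ne
  norm j i := h.norm i j
  row j i k hik := h.col i k j hik
  col j l i hjl := h.row i j l hjl
  off j l i k hjl hik := h.off i k j l hik hjl
  deg j i l k := h.deg i j k l
  νI_ne := h.νJ_ne
  νI_inv := h.νJ_inv
  νJ_ne := h.νI_ne
  νJ_inv := h.νI_inv
  σI_spec j i x := h.σJ_spec i j x
  σJ_spec j i x := h.σI_spec i j x

omit [DecidableEq X] in
theorem rowRel (h : IsArr d γ νI νJ σI σJ) (i : I) {j l : J} (hjl : j ≠ l) :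
    Rel d (γ i j) (γ i l) :=
  ⟨h.norm i j, h.norm i l, h.row i j l hjl, h.deg _ _ _ _⟩

omit [DecidableEq X] in
theorem colRel (h : IsArr d γ νI νJ σI σJ) {i k : I} (hik : i ≠ k) (j : J) :
    Rel d (γ i j) (γ k j) :=
  ⟨h.norm i j, h.norm k j, h.col i k j hik, h.deg _ _ _ _⟩

/-- every row has a common support point -/
theorem row_point [Nonempty J] (h : IsArr d γ νI νJ σI σJ) (i : I) : ∃ x, ∀ l, γ i l x ≠ 0 := by
  obtain ⟨j₀⟩ := ‹Nonempty J›
  obtain ⟨x, hx, hx'⟩ := (h.rowRel i (h.νJ_ne j₀).symm).exists_common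
  refine ⟨x, fun l => ?_⟩
  by_cases h1 : l = j₀
  · rw [h1]; exact hx
  by_cases h2 : l = νJ j₀
  · rw [h2]; exact hx'
  obtain ⟨u, hu, hu'⟩ := (h.rowRel i (h.νJ_ne l).symm).exists_common
  have h3 : j₀ ≠ νJ l := by
    intro hh
    apply h2
    rw [hh, h.νJ_inv]
  have h4 : νJ j₀ ≠ νJ l := by
    intro hh
    apply h1
    rw [← h.νJ_inv l, ← hh, h.νJ_inv]
  have hxu : x = u := by
    refine sunflower_aux (v := γ (νI i) j₀) h.d_ne σJ (h.rowRel i (h.νJ_ne j₀).symm)
      (h.rowRel i (h.νJ_ne l).symm) (h.rowRel i (Ne.symm h1)) (h.rowRel i h3)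
      (h.rowRel i (Ne.symm h2)) (h.rowRel i h4) (h.σJ_spec i j₀) ?_ (h.σJ_spec i l) ?_
      (h.col _ _ _ (h.νI_ne i)) (h.off _ _ _ _ (h.νI_ne i) (h.νJ_ne j₀).symm)
      (h.off _ _ _ _ (h.νI_ne i) (Ne.symm h1)) (h.off _ _ _ _ (h.νI_ne i) h3) hx hx' hu hu'
    · intro y
      have := h.σJ_spec i (νJ j₀) y
      rwa [h.νJ_inv] at this
    · intro y
      have := h.σJ_spec i (νJ l) y
      rwa [h.νJ_inv] at this
  rw [hxu]; exact hu

/-- the common point of a row is not the common point of a column -/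
theorem row_ne_col [Fintype J] [DecidableEq J] (h : IsArr d γ νI νJ σI σJ)
    (hJ : 4 ≤ Fintype.card J) {Xp : I → X} {Yp : J → X} (PX : ∀ i l, γ i l (Xp i) ≠ 0)
    (PY : ∀ k j, γ k j (Yp j) ≠ 0) (i : I) (j : J) : Xp i ≠ Yp j := by
  intro he
  set e := Xp i with hedef
  set k := νI i with hk
  have hik : i ≠ k := (h.νI_ne i).symm
  have key : ∀ l, l ≠ j → ∃ y, y ≠ e ∧ γ i l y ≠ 0 ∧ γ k j y ≠ 0 := by
    intro l hl
    by_contra hcon
    push Not at hcon
    have h0 := h.off i k l j hik hl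
    unfold dot at h0
    rw [Finset.sum_eq_single e] at h0
    · have h1 : γ i l e = γ i j e := (h.rowRel i hl).eq_of_ne_zero h.d_ne (PX i l) (PX i j)
      have h2 : γ k j e = γ i j e :=
        (h.colRel hik.symm j).eq_of_ne_zero h.d_ne (by rw [he]; exact PY k j) (PX i j)
      rw [h1, h2, sq_of_ne_zero (h.norm i j) (PX i j)] at h0
      norm_num at h0
    · intro y _ hy
      by_cases hy1 : γ i l y = 0
      · rw [hy1, zero_mul]
      · rw [hcon y hy hy1, mul_zero]
    · intro hh; exact absurd (Finset.mem_univ e) hh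
  have : Nonempty X := ⟨e⟩
  choose! y hy1 hy2 hy3 using key
  have hinj : ∀ l l', l ≠ j → l' ≠ j → l ≠ l' → y l ≠ y l' := by
    intro l l' hl hl' hne heq
    apply hy1 l hl
    exact (h.rowRel i hne).common_unique h.d_ne (hy2 l hl) (by rw [heq]; exact hy2 l' hl')
      (PX i l) (PX i l')
  have hcard : 3 ≤ (Finset.univ.erase j).card := by
    rw [Finset.card_erase_of_mem (Finset.mem_univ j), Finset.card_univ]
    omega
  obtain ⟨T, hT, hT3⟩ := Finset.exists_subset_card_eq hcard
  obtain ⟨l₁, l₂, l₃, h12, h13, h23, rfl⟩ := Finset.card_eq_three.mp hT3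
  have m1 : l₁ ≠ j := Finset.ne_of_mem_erase (hT (by simp))
  have m2 : l₂ ≠ j := Finset.ne_of_mem_erase (hT (by simp))
  have m3 : l₃ ≠ j := Finset.ne_of_mem_erase (hT (by simp))
  obtain ⟨c, -, -, -, hc⟩ := norm3_decomp (h.norm k j) (hy1 l₁ m1).symm
    (by rw [he]; exact PY k j) (hy3 l₁ m1)
  have e2 : y l₂ = c := by
    by_contra hh
    exact hy3 l₂ m2 (hc _ (hy1 l₂ m2) (hinj _ _ m1 m2 h12).symm hh)
  have e3 : y l₃ = c := by
    by_contra hh
    exact hy3 l₃ m3 (hc _ (hy1 l₃ m3) (hinj _ _ m1 m3 h13).symm hh)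
  exact hinj _ _ m2 m3 h23 (e2.trans e3.symm)

/-- The structure theorem for the array. -/
theorem main [Nonempty I] [Nonempty J] [Fintype I] [Fintype J] [DecidableEq I] [DecidableEq J]
    (h : IsArr d γ νI νJ σI σJ) (hbig : 4 ≤ Fintype.card J ∨ 4 ≤ Fintype.card I) :
    ∃ (Xp : I → X) (Yp : J → X) (Zp : I → J → X) (s : I → ℤ) (t : J → ℤ) (r : I → J → ℤ),
      (∀ i, s i = 1 ∨ s i = -1) ∧ (∀ j, t j = 1 ∨ t j = -1) ∧ (∀ i j, r i j = 1 ∨ r i j = -1) ∧
      (∀ i j x, γ i j x = s i * (if x = Xp i then 1 else 0) + t j * (if x = Yp j then 1 else 0)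
        + r i j * (if x = Zp i j then 1 else 0)) ∧
      Function.Injective Xp ∧ Function.Injective Yp ∧ (∀ i j, Xp i ≠ Yp j) ∧
      (∀ i j k, Zp i j ≠ Xp k) ∧ (∀ i j l, Zp i j ≠ Yp l) ∧
      (∀ i j k l, Zp i j = Zp k l → i = k ∧ j = l) := by
  choose Xp PX using h.row_point
  choose Yp PY' using h.transpose.row_point
  have PY : ∀ k j, γ k j (Yp j) ≠ 0 := fun k j => PY' j k
  have hXY : ∀ i j, Xp i ≠ Yp j := by
    rcases hbig with hJ | hI
    · exact h.row_ne_col hJ PX PY
    · exact fun i j => (h.transpose.row_ne_col hI PY' (fun j i => PX i j) j i).symm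
  have hX0 : ∀ i k l, k ≠ i → γ k l (Xp i) = 0 := by
    intro i k l hki
    by_contra hne
    exact hXY i l ((h.colRel hki.symm l).common_unique h.d_ne (PX i l) hne (PY i l) (PY k l))
  have hY0 : ∀ j k l, l ≠ j → γ k l (Yp j) = 0 := by
    intro j k l hlj
    by_contra hne
    exact hXY k j ((h.rowRel k hlj.symm).common_unique h.d_ne (PY k j) hne (PX k j) (PX k l)).symm
  have hZ := fun i j => norm3_decomp (h.norm i j) (hXY i j) (PX i j) (PY i j)
  choose Zp hZa hZb hZc hZ0 using hZ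
  obtain ⟨i₀⟩ := ‹Nonempty I›
  obtain ⟨j₀⟩ := ‹Nonempty J›
  have hs : ∀ i l, γ i l (Xp i) = γ i j₀ (Xp i) := by
    intro i l
    by_cases hl : l = j₀
    · rw [hl]
    · exact (h.rowRel i hl).eq_of_ne_zero h.d_ne (PX i l) (PX i j₀)
  have ht : ∀ k j, γ k j (Yp j) = γ i₀ j (Yp j) := by
    intro k j
    by_cases hk : k = i₀
    · rw [hk]
    · exact (h.colRel hk j).eq_of_ne_zero h.d_ne (PY k j) (PY i₀ j)
  have hpm : ∀ i j x, γ i j x ≠ 0 → γ i j x = 1 ∨ γ i j x = -1 := by
    intro i j x hx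
    rcases val_of_norm3 (h.norm i j) x with h1 | h1 | h1
    · exact absurd h1 hx
    · exact Or.inl h1
    · exact Or.inr h1
  have hZX : ∀ i j k, Zp i j ≠ Xp k := by
    intro i j k he
    by_cases hik : i = k
    · subst hik; exact hZa i j he
    · apply hZc i j
      rw [he]
      exact hX0 k i j hik
  have hZY : ∀ i j l, Zp i j ≠ Yp l := by
    intro i j l he
    by_cases hjl : j = l
    · subst hjl; exact hZb i j he
    · apply hZc i j
      rw [he]
      exact hY0 l i j hjl
  refine ⟨Xp, Yp, Zp, fun i => γ i j₀ (Xp i), fun j => γ i₀ j (Yp j), fun i j => γ i j (Zp i j),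
    fun i => hpm _ _ _ (PX i j₀), fun j => hpm _ _ _ (PY i₀ j), fun i j => hpm _ _ _ (hZc i j),
    ?_, ?_, ?_, hXY, hZX, hZY, ?_⟩
  · intro i j x
    by_cases h1 : x = Xp i
    · rw [if_pos h1, if_neg (by rw [h1]; exact hXY i j), if_neg (by rw [h1]; exact (hZa i j).symm),
        h1, hs i j]
      ring
    by_cases h2 : x = Yp j
    · rw [if_neg h1, if_pos h2, if_neg (by rw [h2]; exact (hZb i j).symm), h2, ht i j]
      ring
    by_cases h3 : x = Zp i j
    · rw [if_neg h1, if_neg h2, if_pos h3, h3]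
      ring
    · rw [if_neg h1, if_neg h2, if_neg h3, hZ0 i j x h1 h2 h3]
      ring
  · intro i k he
    by_contra hik
    apply PX k j₀
    rw [← he]
    exact hX0 i k j₀ (Ne.symm hik)
  · intro j l he
    by_contra hjl
    apply PY i₀ l
    rw [← he]
    exact hY0 j i₀ l (Ne.symm hjl)
  · intro i j k l he
    by_cases hik : i = k
    · subst hik
      refine ⟨rfl, ?_⟩
      by_contra hjl
      apply hZa i j
      exact (h.rowRel i hjl).common_unique h.d_ne (hZc i j) (by rw [he]; exact hZc i l)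
        (PX i j) (PX i l)
    · exfalso
      by_cases hjl : j = l
      · subst hjl
        apply hZb i j
        exact (h.colRel hik j).common_unique h.d_ne (hZc i j) (by rw [he]; exact hZc k j)
          (PY i j) (PY k j)
      · have h0 := h.off i k j l hik hjl
        unfold dot at h0
        rw [Finset.sum_eq_single (Zp i j)] at h0
        · rcases mul_eq_zero.mp h0 with h1 | h1
          · exact hZc i j h1
          · rw [he] at h1; exact hZc k l h1
        · intro x _ hx
          by_cases h1 : x = Xp i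
          · rw [h1, hX0 i k l (Ne.symm hik), mul_zero]
          by_cases h2 : x = Yp j
          · rw [h2, hY0 j k l (Ne.symm hjl), mul_zero]
          · rw [hZ0 i j x h1 h2 hx, zero_mul]
        · intro hh; exact absurd (Finset.mem_univ _) hh

end IsArr

end Cfsg.Agent.Lib.Helper3.Arr
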