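import Cfsg.Agent.Lib.Helper80.CycTITwist
import Cfsg.Agent.S1505
import Cfsg.Agent.S1508
import Cfsg.Agent.Lib.Helper3.ArrayLemma
import Cfsg.Agent.Lib.Helper3.Table
import Cfsg.Agent.Lib.Helper3.Induction

/-!
# Existence of the cyclic TI family: group-theoretic preliminaries and coefficients
-/

set_option autoImplicit false
set_option linter.unusedSectionVars false

namespace Cfsg.Agent.Lib.Helper3.CycEx

open Cfsg Cfsg.Agent.Lib.Helper25 Cfsg.Agent.Lib.Helper80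
open scoped ComplexConjugate

variable {G : Type*} [Group G] [Fintype G] {W₁ W₂ : Subgroup G}

/-- the two factors of a self-normalising cyclic subgroup have coprime orders. -/
theorem coprime_card_snc (hW : IsSelfNormalizingCyclic W₁ W₂) :
    (Nat.card W₁).Coprime (Nat.card W₂) := by
  have hcyc : IsCyclic ↥(W₁ ⊔ W₂) := hW.2.2.2.2.1
  have hc := comm_of_snc hW
  have hmul := card_mul_card_snc hW
  set L := Nat.lcm (Nat.card W₁) (Nat.card W₂) with hL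
  have hpow : ∀ w : ↥(W₁ ⊔ W₂), w ^ L = 1 := by
    let _ : CommGroup ↥(W₁ ⊔ W₂) := { (inferInstance : Group ↥(W₁ ⊔ W₂)) with mul_comm := hc }
    intro w
    have hw : w ∈ subA W₁ W₂ ⊔ subB W₁ W₂ := by rw [subA_sup_subB]; exact Subgroup.mem_top w
    obtain ⟨a, ha, b, hb, rfl⟩ := Subgroup.mem_sup.1 hw
    rw [mul_pow]
    have h1 : a ^ L = 1 := by
      apply Subtype.ext
      have ha' : (a : G) ∈ W₁ := ha
      have : (⟨(a : G), ha'⟩ : W₁) ^ Nat.card W₁ = 1 := pow_card_eq_one'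
      have h2 : (a : G) ^ Nat.card W₁ = 1 := congrArg Subtype.val this
      obtain ⟨c, hc'⟩ := Nat.dvd_lcm_left (Nat.card W₁) (Nat.card W₂)
      rw [hL, hc']
      simp [pow_mul, h2]
    have h2 : b ^ L = 1 := by
      apply Subtype.ext
      have hb' : (b : G) ∈ W₂ := hb
      have : (⟨(b : G), hb'⟩ : W₂) ^ Nat.card W₂ = 1 := pow_card_eq_one'
      have h2 : (b : G) ^ Nat.card W₂ = 1 := congrArg Subtype.val this
      obtain ⟨c, hc'⟩ := Nat.dvd_lcm_right (Nat.card W₁) (Nat.card W₂)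
      rw [hL, hc']
      simp [pow_mul, h2]
    rw [h1, h2, one_mul]
  have hexp : Nat.card ↥(W₁ ⊔ W₂) ∣ L := by
    rw [← IsCyclic.exponent_eq_card]
    exact Monoid.exponent_dvd_of_forall_pow_eq_one hpow
  rw [← hmul, ← Nat.gcd_mul_lcm] at hexp
  have hLpos : 0 < L := Nat.lcm_pos Nat.card_pos Nat.card_pos
  have : Nat.gcd (Nat.card W₁) (Nat.card W₂) * L ≤ L := Nat.le_of_dvd hLpos hexp
  have hg : 0 < Nat.gcd (Nat.card W₁) (Nat.card W₂) := Nat.gcd_pos_of_pos_left _ Nat.card_pos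
  rw [Nat.Coprime]
  nlinarith

theorem pow_card_of_mem_subB (hW : IsSelfNormalizingCyclic W₁ W₂)
    {φ : ↥(W₁ ⊔ W₂) →* ℂˣ} (hφ : φ ∈ dualOf (subB W₁ W₂)) : φ ^ Nat.card W₁ = 1 := by
  have hc := comm_of_snc hW
  have hn : (subB W₁ W₂).Normal :=
    ⟨fun n hn g => by rw [hc g n, mul_assoc, mul_inv_cancel, mul_one]; exact hn⟩
  ext w
  rw [MonoidHom.pow_apply, ← map_pow, ← card_dualOf_subB hW, card_dualOf hc,
    mem_dualOf.1 hφ _ (Subgroup.pow_index_mem _ w)]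
  rfl

theorem pow_card_of_mem_subA (hW : IsSelfNormalizingCyclic W₁ W₂)
    {ψ : ↥(W₁ ⊔ W₂) →* ℂˣ} (hψ : ψ ∈ dualOf (subA W₁ W₂)) : ψ ^ Nat.card W₂ = 1 := by
  have hc := comm_of_snc hW
  have hn : (subA W₁ W₂).Normal :=
    ⟨fun n hn g => by rw [hc g n, mul_assoc, mul_inv_cancel, mul_one]; exact hn⟩
  ext w
  rw [MonoidHom.pow_apply, ← map_pow, ← card_dualOf_subA hW, card_dualOf hc,
    mem_dualOf.1 hψ _ (Subgroup.pow_index_mem _ w)]
  rfl

theorem pow_eq_self_of {M : Type*} [Group M] {x : M} {n k : ℕ} (hx : x ^ n = 1)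
    (hk : k ≡ 1 [MOD n]) : x ^ k = x := by
  conv_rhs => rw [← pow_one x]
  exact pow_eq_pow_iff_modEq.2 (hk.of_dvd (orderOf_dvd_of_pow_eq_one hx))

theorem pow_eq_inv_of {M : Type*} [Group M] {x : M} {n k : ℕ} (hn : 0 < n) (hx : x ^ n = 1)
    (hk : k ≡ n - 1 [MOD n]) : x ^ k = x⁻¹ := by
  have h1 : x ^ k = x ^ (n - 1) :=
    pow_eq_pow_iff_modEq.2 (hk.of_dvd (orderOf_dvd_of_pow_eq_one hx))
  rw [h1, eq_inv_iff_mul_eq_one, ← pow_succ, Nat.sub_add_cancel hn, hx]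

theorem inv_ne_self_of_odd {M : Type*} [Group M] {x : M} {n : ℕ} (hn : Odd n) (hx : x ^ n = 1)
    (h1 : x ≠ 1) : x⁻¹ ≠ x := by
  intro h
  apply h1
  have h2 : x ^ 2 = 1 := by
    rw [pow_two]
    nth_rewrite 1 [← h]
    exact inv_mul_cancel x
  obtain ⟨m, rfl⟩ := hn
  rwa [pow_succ, pow_mul, h2, one_pow, one_mul] at hx

/-- a power map inverting the first factor and fixing the second. -/
theorem exists_twist (N a b : ℕ) (hN : 0 < N) (ha0 : 0 < a) (ha : a ∣ N) (hb : b ∣ N)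
    (hab : a.Coprime b) :
    ∃ k k' : ℕ, k * k' ≡ 1 [MOD N] ∧ k ≡ a - 1 [MOD a] ∧ k ≡ 1 [MOD b] := by
  have hk : (a - 1).Coprime a := by
    obtain ⟨m, rfl⟩ : ∃ m, a = m + 1 := ⟨a - 1, by omega⟩
    simp
  obtain ⟨k, c1, c2, c3⟩ := Cfsg.Agent.S1508.exists_lift N a b (a - 1) hN ha hb hab hk
  obtain ⟨k', -, hk'⟩ := Nat.exists_mul_mod_eq_of_coprime 1 c1 hN.ne'
  exact ⟨k, k', hk', c2, c3⟩


/-! ### The generalized characters `Ind α - 1` and their coefficients -/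

/-- `Ind ((1 - φ)(1 - ψ)) - 1`. -/
noncomputable def gam (φ ψ : ↥(W₁ ⊔ W₂) →* ℂˣ) : G → ℂ :=
  indFun (W₁ ⊔ W₂) (alphaFun φ ψ) - fun _ => 1

theorem isClassFunction_const_one : IsClassFunction G (fun _ => (1 : ℂ)) := fun _ _ => rfl

theorem isClassFunction_gam (φ ψ : ↥(W₁ ⊔ W₂) →* ℂˣ) : IsClassFunction G (gam φ ψ) :=
  IsClassFunction.sub (isClassFunction_indFun _ _) isClassFunction_const_one

theorem isIrr_one : IsIrrCharacter G (fun _ => (1 : ℂ)) := by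
  have := Cfsg.Agent.Lib.Helper74.isIrrCharacter_of_hom (1 : G →* ℂˣ)
  simpa using this

theorem isCharacter_linFun {X : Type*} [Group X] (ω : X →* ℂˣ) : IsCharacter X (linFun ω) :=
  IsIrrCharacter.isCharacter (Cfsg.Agent.Lib.Helper74.isIrrCharacter_of_hom ω)

theorem exists_int_gam (φ ψ : ↥(W₁ ⊔ W₂) →* ℂˣ) (χ : IrrCharacter G) :
    ∃ n : ℤ, classInner (gam φ ψ) χ = n := by
  classical
  let _ : Fintype ↥(W₁ ⊔ W₂) := Fintype.ofFinite _
  have hχ := IsIrrCharacter.isCharacter χ.2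
  have hr := IsCharacter.restrict hχ (W₁ ⊔ W₂)
  obtain ⟨n0, h0⟩ := IsCharacter.classInner_eq_natCast (IsIrrCharacter.isCharacter isIrr_one) hχ
  obtain ⟨n1, h1⟩ := IsCharacter.classInner_eq_natCast (isCharacter_linFun (1 : ↥(W₁ ⊔ W₂) →* ℂˣ)) hr
  obtain ⟨n2, h2⟩ := IsCharacter.classInner_eq_natCast (isCharacter_linFun φ) hr
  obtain ⟨n3, h3⟩ := IsCharacter.classInner_eq_natCast (isCharacter_linFun ψ) hr
  obtain ⟨n4, h4⟩ := IsCharacter.classInner_eq_natCast (isCharacter_linFun (φ * ψ)) hr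
  refine ⟨(n1 : ℤ) - n2 - n3 + n4 - n0, ?_⟩
  rw [gam, classInner_sub_left, frobenius_reciprocity _ _ (IsIrrCharacter.isClassFunction χ.2),
    alphaFun_eq, classInner_add_left, classInner_sub_left, classInner_sub_left, h0]
  erw [h1, h2, h3, h4]
  push_cast
  ring

/-- the integer coefficient of `χ` in `gam φ ψ`. -/
noncomputable def coef (φ ψ : ↥(W₁ ⊔ W₂) →* ℂˣ) (χ : IrrCharacter G) : ℤ :=
  (exists_int_gam φ ψ χ).choose

theorem coef_spec (φ ψ : ↥(W₁ ⊔ W₂) →* ℂˣ) (χ : IrrCharacter G) :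
    classInner (gam φ ψ) χ = coef φ ψ χ := (exists_int_gam φ ψ χ).choose_spec

theorem coef_spec' (φ ψ : ↥(W₁ ⊔ W₂) →* ℂˣ) (χ : IrrCharacter G) :
    classInner (χ : G → ℂ) (gam φ ψ) = coef φ ψ χ := by
  rw [← classInner_conj_symm, coef_spec, map_intCast]

theorem gam_expansion [Fintype (IrrCharacter G)] (φ ψ : ↥(W₁ ⊔ W₂) →* ℂˣ) :
    gam φ ψ = ∑ χ : IrrCharacter G, (coef φ ψ χ : ℂ) • (χ : G → ℂ) := by
  conv_lhs => rw [classFunction_expansion (isClassFunction_gam φ ψ)]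
  simp only [coef_spec]

theorem dot_coef [Fintype (IrrCharacter G)] (φ ψ φ' ψ' : ↥(W₁ ⊔ W₂) →* ℂˣ) :
    ((Arr.dot (coef φ ψ) (coef φ' ψ') : ℤ) : ℂ) = classInner (gam φ ψ) (gam φ' ψ') := by
  rw [classInner_eq_sum_coeff (isClassFunction_gam φ ψ), Arr.dot]
  push_cast
  refine Finset.sum_congr rfl fun χ _ => ?_
  rw [coef_spec, coef_spec']

theorem classInner_one_one : classInner (fun _ : G => (1 : ℂ)) (fun _ => 1) = 1 :=
  classInner_irr_self isIrr_one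

section

variable (hW : IsSelfNormalizingCyclic W₁ W₂) {φ φ' ψ ψ' : ↥(W₁ ⊔ W₂) →* ℂˣ}
  (hφ : φ ∈ dualOf (subB W₁ W₂)) (hφ' : φ' ∈ dualOf (subB W₁ W₂))
  (hψ : ψ ∈ dualOf (subA W₁ W₂)) (hψ' : ψ' ∈ dualOf (subA W₁ W₂))
  (h1 : φ ≠ 1) (h1' : φ' ≠ 1) (h2 : ψ ≠ 1) (h2' : ψ' ≠ 1)

include hW hφ hψ h1 h2 in
theorem classInner_ind_one :
    classInner (indFun (W₁ ⊔ W₂) (alphaFun φ ψ)) (fun _ => 1) = 1 :=
  (Cfsg.Agent.S1505.result W₁ W₂ hW φ φ ψ ψ h1 h1 h2 h2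
    (fun w hw => ⟨mem_dualOf_subB.1 hφ w hw, mem_dualOf_subB.1 hφ w hw⟩)
    (fun w hw => ⟨mem_dualOf_subA.1 hψ w hw, mem_dualOf_subA.1 hψ w hw⟩)).1

include hW hφ hψ h1 h2 in
theorem classInner_gam_one : classInner (gam φ ψ) (fun _ => 1) = 0 := by
  rw [gam, classInner_sub_left, classInner_ind_one hW hφ hψ h1 h2, classInner_one_one, sub_self]

open Classical in
include hW hφ hφ' hψ hψ' h1 h1' h2 h2' in
theorem classInner_gam_gam :
    classInner (gam φ ψ) (gam φ' ψ') = (if φ = φ' then 1 else 0) + (if ψ = ψ' then 1 else 0) +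
      (if φ = φ' then 1 else 0) * (if ψ = ψ' then 1 else 0) := by
  have e1 := (Cfsg.Agent.S1505.result W₁ W₂ hW φ φ' ψ ψ' h1 h1' h2 h2'
    (fun w hw => ⟨mem_dualOf_subB.1 hφ w hw, mem_dualOf_subB.1 hφ' w hw⟩)
    (fun w hw => ⟨mem_dualOf_subA.1 hψ w hw, mem_dualOf_subA.1 hψ' w hw⟩)).2
  have e2 := classInner_ind_one hW hφ hψ h1 h2
  have e3 := classInner_ind_one hW hφ' hψ' h1' h2'
  have e4 : classInner (fun _ : G => (1 : ℂ)) (indFun (W₁ ⊔ W₂) (alphaFun φ' ψ')) = 1 := by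
    rw [← classInner_conj_symm, e3, map_one]
  change classInner (indFun (W₁ ⊔ W₂) (alphaFun φ ψ)) (indFun (W₁ ⊔ W₂) (alphaFun φ' ψ')) = _ at e1
  rw [gam, gam, classInner_sub_left, classInner_sub_right, classInner_sub_right, e1, e2, e4,
    classInner_one_one]
  ring

end

theorem gam_apply_one (φ ψ : ↥(W₁ ⊔ W₂) →* ℂˣ) : gam φ ψ 1 = -1 := by
  rw [gam, Pi.sub_apply, indFun_one]
  simp [alphaFun]

theorem gam_pow {k k' : ℕ} (h : k * k' ≡ 1 [MOD Nat.card G]) (φ ψ : ↥(W₁ ⊔ W₂) →* ℂˣ) :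
    gam (φ ^ k) (ψ ^ k) = fun g => gam φ ψ (g ^ k) := by
  funext g
  rw [gam, gam, Pi.sub_apply, Pi.sub_apply, indFun_pow _ h]
  congr 2
  funext w
  simp [alphaFun]

/-- Galois twist of an irreducible character. -/
noncomputable def twist (k : ℕ) (hk : k.Coprime (Nat.card G)) (χ : IrrCharacter G) :
    IrrCharacter G :=
  ⟨fun g => χ.1 (g ^ k), Cfsg.Agent.Lib.Helper76.isIrrCharacter_pow_coprime χ.2 hk⟩

theorem coef_pow {k k' : ℕ} (h : k * k' ≡ 1 [MOD Nat.card G]) (hk : k.Coprime (Nat.card G))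
    (φ ψ : ↥(W₁ ⊔ W₂) →* ℂˣ) (χ : IrrCharacter G) :
    coef (φ ^ k) (ψ ^ k) (twist k hk χ) = coef φ ψ χ := by
  have e : ((coef (φ ^ k) (ψ ^ k) (twist k hk χ) : ℤ) : ℂ) = (coef φ ψ χ : ℤ) := by
    rw [← coef_spec, ← coef_spec, gam_pow h]
    exact classInner_comp_pow hk _ _
  exact_mod_cast e

/-- the degree of an irreducible character as an integer. -/
noncomputable def deg (χ : IrrCharacter G) : ℤ :=
  ((IsCharacter.apply_one_eq_natCast (IsIrrCharacter.isCharacter χ.2)).choose : ℕ)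

theorem deg_spec (χ : IrrCharacter G) : (χ : G → ℂ) 1 = (deg χ : ℂ) := by
  rw [deg]
  push_cast
  exact (IsCharacter.apply_one_eq_natCast (IsIrrCharacter.isCharacter χ.2)).choose_spec

theorem deg_ne_zero (χ : IrrCharacter G) : deg χ ≠ 0 := by
  intro h
  apply IsIrrCharacter.apply_one_ne_zero χ.2
  rw [deg_spec, h, Int.cast_zero]

theorem dot_coef_deg [Fintype (IrrCharacter G)] (φ ψ : ↥(W₁ ⊔ W₂) →* ℂˣ) :
    Arr.dot (coef φ ψ) deg = -1 := by
  have e : ((Arr.dot (coef φ ψ) deg : ℤ) : ℂ) = ((-1 : ℤ) : ℂ) := by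
    have h := congrFun (gam_expansion φ ψ) 1
    rw [gam_apply_one, Finset.sum_apply] at h
    rw [Arr.dot]
    push_cast
    rw [h]
    refine Finset.sum_congr rfl fun χ _ => ?_
    rw [Pi.smul_apply, smul_eq_mul, deg_spec]
  exact_mod_cast e

end Cfsg.Agent.Lib.Helper3.CycEx
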