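import Cfsg.Agent.Lib.Helper3.CycExA

/-!
# Existence of the cyclic TI family: the array and the family
-/

set_option autoImplicit false
set_option linter.unusedSectionVars false

namespace Cfsg.Agent.Lib.Helper3.CycEx

open Cfsg Cfsg.Agent.Lib.Helper25 Cfsg.Agent.Lib.Helper80
open scoped ComplexConjugate

/-! ### Gluing four kinds of points -/

/-- glue a base point, two rows and an array into a function on `Option I × Option J`. -/
def mkP {I J X : Type*} (o : X) (Xp : I → X) (Yp : J → X) (Zp : I → J → X) :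
    Option I × Option J → X
  | (none, none) => o
  | (some i, none) => Xp i
  | (none, some j) => Yp j
  | (some i, some j) => Zp i j

theorem mkP_injective {I J X : Type*} {o : X} {Xp : I → X} {Yp : J → X} {Zp : I → J → X}
    (hX : Function.Injective Xp) (hY : Function.Injective Yp) (hXY : ∀ i j, Xp i ≠ Yp j)
    (hZX : ∀ i j k, Zp i j ≠ Xp k) (hZY : ∀ i j l, Zp i j ≠ Yp l)
    (hZ : ∀ i j k l, Zp i j = Zp k l → i = k ∧ j = l)
    (hXo : ∀ i, Xp i ≠ o) (hYo : ∀ j, Yp j ≠ o) (hZo : ∀ i j, Zp i j ≠ o) :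
    Function.Injective (mkP o Xp Yp Zp) := by
  rintro ⟨_ | i, _ | j⟩ ⟨_ | k, _ | l⟩ h <;> simp only [mkP] at h
  · rfl
  · exact absurd h.symm (hYo _)
  · exact absurd h.symm (hXo _)
  · exact absurd h.symm (hZo _ _)
  · exact absurd h (hYo _)
  · rw [hY h]
  · exact absurd h.symm (hXY _ _)
  · exact absurd h.symm (hZY _ _ _)
  · exact absurd h (hXo _)
  · exact absurd h (hXY _ _)
  · rw [hX h]
  · exact absurd h.symm (hZX _ _ _)
  · exact absurd h (hZo _ _)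
  · exact absurd h (hZY _ _ _)
  · exact absurd h (hZX _ _ _)
  · obtain ⟨rfl, rfl⟩ := hZ _ _ _ _ h; rfl

theorem mkP_sign {I J : Type*} {s : I → ℤ} {t : J → ℤ} {r : I → J → ℤ}
    (hs : ∀ i, s i = 1 ∨ s i = -1) (ht : ∀ j, t j = 1 ∨ t j = -1)
    (hr : ∀ i j, r i j = 1 ∨ r i j = -1) (κ : Option I × Option J) :
    mkP 1 (fun i => -s i) (fun j => -t j) r κ = 1 ∨ mkP 1 (fun i => -s i) (fun j => -t j) r κ = -1 := by
  rcases κ with ⟨_ | i, _ | j⟩ <;> simp only [mkP]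
  · left; trivial
  · rcases ht j with h | h <;> rw [h] <;> simp
  · rcases hs i with h | h <;> rw [h] <;> simp
  · exact hr i j

variable {G : Type*} [Group G] [Fintype G] {W₁ W₂ : Subgroup G}

open Classical in
/-- `eq_on` follows from the other properties of a cyclic TI family. -/
theorem eq_on_of (hW : IsSelfNormalizingCyclic W₁ W₂) (χ : (↥(W₁ ⊔ W₂) →* ℂˣ) → (G → ℂ))
    (hcl : ∀ ω, IsClassFunction G (χ ω))
    (horth : ∀ ω ω', classInner (χ ω) (χ ω') = if ω = ω' then 1 else 0)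
    (hind : ∀ φ ψ : ↥(W₁ ⊔ W₂) →* ℂˣ, φ ≠ 1 → ψ ≠ 1 → φ ∈ dualOf (subB W₁ W₂) →
      ψ ∈ dualOf (subA W₁ W₂) →
      indFun (W₁ ⊔ W₂) (alphaFun φ ψ) = χ 1 - χ φ - χ ψ + χ (φ * ψ))
    (ω : ↥(W₁ ⊔ W₂) →* ℂˣ) (w : ↥(W₁ ⊔ W₂)) (h1 : (w : G) ∉ W₁) (h2 : (w : G) ∉ W₂) :
    χ ω w = (ω w : ℂ) := by
  let _ : Fintype ↥(W₁ ⊔ W₂) := Fintype.ofFinite _
  have hc := comm_of_snc hW
  have key := eq_zero_of_orthogonal hc (subA W₁ W₂) (subB W₁ W₂) (subA_inf_subB hW.2.2.1)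
    (fun x => χ ω x - (ω x : ℂ)) ?_ w h1 h2
  · exact sub_eq_zero.1 key
  intro φ hφ ψ hψ
  by_cases hφ1 : φ = 1
  · subst hφ1
    simp
  by_cases hψ1 : ψ = 1
  · subst hψ1
    simp
  have e1 : classInner (fun x : ↥(W₁ ⊔ W₂) => χ ω x) (alphaFun φ ψ) =
      classInner (linFun ω) (alphaFun φ ψ) := by
    rw [← Cfsg.Agent.Lib.Helper15.classInner_indFun_right _ _ _ (hcl ω), hind φ ψ hφ1 hψ1 hφ hψ,
      alphaFun_eq]
    simp only [classInner_add_right, classInner_sub_right, horth, classInner_linFun]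
    congr
  have e2 : classInner (fun x : ↥(W₁ ⊔ W₂) => χ ω x - (ω x : ℂ)) (alphaFun φ ψ) = 0 := by
    have : (fun x : ↥(W₁ ⊔ W₂) => χ ω x - (ω x : ℂ)) = (fun x : ↥(W₁ ⊔ W₂) => χ ω x) - linFun ω := rfl
    rw [this, classInner_sub_left, e1, sub_self]
  unfold classInner at e2
  rcases mul_eq_zero.1 e2 with h | h
  · exfalso
    have : (Nat.card ↥(W₁ ⊔ W₂) : ℂ) ≠ 0 := by exact_mod_cast Nat.card_pos.ne'
    exact (inv_ne_zero this) h
  · exact h


open Classical in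
theorem dot_coef_eq [Fintype (IrrCharacter G)] (hW : IsSelfNormalizingCyclic W₁ W₂)
    {φ φ' ψ ψ' : ↥(W₁ ⊔ W₂) →* ℂˣ}
    (hφ : φ ∈ (dualOf (subB W₁ W₂)).erase 1) (hφ' : φ' ∈ (dualOf (subB W₁ W₂)).erase 1)
    (hψ : ψ ∈ (dualOf (subA W₁ W₂)).erase 1) (hψ' : ψ' ∈ (dualOf (subA W₁ W₂)).erase 1) :
    Arr.dot (coef φ ψ) (coef φ' ψ') = (if φ = φ' then 1 else 0) + (if ψ = ψ' then 1 else 0) +
      (if φ = φ' then 1 else 0) * (if ψ = ψ' then 1 else 0) := by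
  rw [Finset.mem_erase] at hφ hφ' hψ hψ'
  have e : ((Arr.dot (coef φ ψ) (coef φ' ψ') : ℤ) : ℂ) =
      (((if φ = φ' then 1 else 0) + (if ψ = ψ' then 1 else 0) +
      (if φ = φ' then 1 else 0) * (if ψ = ψ' then 1 else 0) : ℤ) : ℂ) := by
    rw [dot_coef, classInner_gam_gam hW hφ.2 hφ'.2 hψ.2 hψ'.2 hφ.1 hφ'.1 hψ.1 hψ'.1]
    push_cast
    rfl
  exact_mod_cast e

open Classical in
/-- index type of the rows. -/
abbrev IdxI (W₁ W₂ : Subgroup G) : Type _ :=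
  {φ : ↥(W₁ ⊔ W₂) →* ℂˣ // φ ∈ (dualOf (subB W₁ W₂)).erase 1}

open Classical in
/-- index type of the columns. -/
abbrev IdxJ (W₁ W₂ : Subgroup G) : Type _ :=
  {ψ : ↥(W₁ ⊔ W₂) →* ℂˣ // ψ ∈ (dualOf (subA W₁ W₂)).erase 1}

theorem odd_cards (hW : IsSelfNormalizingCyclic W₁ W₂) (hodd : Odd (Nat.card ↥(W₁ ⊔ W₂))) :
    Odd (Nat.card W₁) ∧ Odd (Nat.card W₂) := by
  rw [← card_mul_card_snc hW] at hodd
  exact Nat.odd_mul.1 hodd

theorem hom_inv_ne_one {X : Type*} [Group X] {φ : X →* ℂˣ} (h : φ ≠ 1) : φ⁻¹ ≠ 1 := by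
  intro h'
  apply h
  ext w
  have := DFunLike.congr_fun h' w
  rw [MonoidHom.inv_apply, MonoidHom.one_apply, inv_eq_one] at this
  rw [this, MonoidHom.one_apply]

theorem hom_apply_pow_eq_one {X : Type*} [Group X] {φ : X →* ℂˣ} {n : ℕ} (hx : φ ^ n = 1) (w : X) :
    (φ w) ^ n = 1 := by
  have := DFunLike.congr_fun hx w
  rwa [MonoidHom.pow_apply, MonoidHom.one_apply] at this

theorem hom_pow_eq_self_of {X : Type*} [Group X] {φ : X →* ℂˣ} {n k : ℕ} (hx : φ ^ n = 1)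
    (hk : k ≡ 1 [MOD n]) : φ ^ k = φ := by
  ext w
  rw [MonoidHom.pow_apply, pow_eq_self_of (hom_apply_pow_eq_one hx w) hk]

theorem hom_pow_eq_inv_of {X : Type*} [Group X] {φ : X →* ℂˣ} {n k : ℕ} (hn : 0 < n)
    (hx : φ ^ n = 1) (hk : k ≡ n - 1 [MOD n]) : φ ^ k = φ⁻¹ := by
  ext w
  rw [MonoidHom.pow_apply, pow_eq_inv_of hn (hom_apply_pow_eq_one hx w) hk, MonoidHom.inv_apply]

theorem hom_inv_ne_self_of_odd {X : Type*} [Group X] {φ : X →* ℂˣ} {n : ℕ} (hn : Odd n)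
    (hx : φ ^ n = 1) (h1 : φ ≠ 1) : φ⁻¹ ≠ φ := by
  intro h
  apply h1
  ext w
  by_contra hw
  have hw' : φ w ≠ 1 := fun h' => hw (by rw [h', MonoidHom.one_apply])
  apply inv_ne_self_of_odd hn (hom_apply_pow_eq_one hx w) hw'
  have := DFunLike.congr_fun h w
  rwa [MonoidHom.inv_apply] at this

theorem hom_inv_inv {X : Type*} [Group X] (φ : X →* ℂˣ) : φ⁻¹⁻¹ = φ := by
  ext w
  rw [MonoidHom.inv_apply, MonoidHom.inv_apply, inv_inv]

open Classical in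
theorem exists_isArr [Fintype (IrrCharacter G)] (hW : IsSelfNormalizingCyclic W₁ W₂)
    (hodd : Odd (Nat.card ↥(W₁ ⊔ W₂))) :
    ∃ (νI : IdxI W₁ W₂ → IdxI W₁ W₂) (νJ : IdxJ W₁ W₂ → IdxJ W₁ W₂)
      (σI σJ : IrrCharacter G → IrrCharacter G),
      Arr.IsArr deg (fun (i : IdxI W₁ W₂) (j : IdxJ W₁ W₂) => coef i.1 j.1) νI νJ σI σJ := by
  obtain ⟨o1, o2⟩ := odd_cards hW hodd
  have hcop := coprime_card_snc hW
  obtain ⟨k, k', hkk, hk1, hk2⟩ := exists_twist (Nat.card G) (Nat.card W₁) (Nat.card W₂)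
    Nat.card_pos Nat.card_pos (Subgroup.card_subgroup_dvd_card W₁)
    (Subgroup.card_subgroup_dvd_card W₂) hcop
  obtain ⟨l, l', hll, hl1, hl2⟩ := exists_twist (Nat.card G) (Nat.card W₂) (Nat.card W₁)
    Nat.card_pos Nat.card_pos (Subgroup.card_subgroup_dvd_card W₂)
    (Subgroup.card_subgroup_dvd_card W₁) hcop.symm
  have ck : k.Coprime (Nat.card G) := Nat.coprime_of_mul_modEq_one k' hkk
  have cl : l.Coprime (Nat.card G) := Nat.coprime_of_mul_modEq_one l' hll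
  have pI : ∀ i : IdxI W₁ W₂, i.1 ^ Nat.card W₁ = 1 := fun i =>
    pow_card_of_mem_subB hW (Finset.mem_erase.1 i.2).2
  have pJ : ∀ j : IdxJ W₁ W₂, j.1 ^ Nat.card W₂ = 1 := fun j =>
    pow_card_of_mem_subA hW (Finset.mem_erase.1 j.2).2
  refine ⟨fun i => ⟨i.1⁻¹, Finset.mem_erase.2 ⟨hom_inv_ne_one (Finset.mem_erase.1 i.2).1,
      inv_mem_dualOf (Finset.mem_erase.1 i.2).2⟩⟩,
    fun j => ⟨j.1⁻¹, Finset.mem_erase.2 ⟨hom_inv_ne_one (Finset.mem_erase.1 j.2).1,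
      inv_mem_dualOf (Finset.mem_erase.1 j.2).2⟩⟩, twist k ck, twist l cl, ?_⟩
  refine ⟨deg_ne_zero, ?_, ?_, ?_, ?_, ?_, ?_, ?_, ?_, ?_, ?_, ?_⟩
  · intro i j
    rw [dot_coef_eq hW i.2 i.2 j.2 j.2]
    simp
  · intro i j l hjl
    have : j.1 ≠ l.1 := fun h => hjl (Subtype.ext h)
    rw [dot_coef_eq hW i.2 i.2 j.2 l.2]
    simp [this]
  · intro i k j hik
    have : i.1 ≠ k.1 := fun h => hik (Subtype.ext h)
    rw [dot_coef_eq hW i.2 k.2 j.2 j.2]
    simp [this]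
  · intro i k j l hik hjl
    have h1 : i.1 ≠ k.1 := fun h => hik (Subtype.ext h)
    have h2 : j.1 ≠ l.1 := fun h => hjl (Subtype.ext h)
    rw [dot_coef_eq hW i.2 k.2 j.2 l.2]
    simp [h1, h2]
  · intro i j k l
    rw [dot_coef_deg, dot_coef_deg]
  · intro i h
    exact hom_inv_ne_self_of_odd o1 (pI i) (Finset.mem_erase.1 i.2).1 (congrArg Subtype.val h)
  · intro i
    exact Subtype.ext (hom_inv_inv i.1)
  · intro j h
    exact hom_inv_ne_self_of_odd o2 (pJ j) (Finset.mem_erase.1 j.2).1 (congrArg Subtype.val h)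
  · intro j
    exact Subtype.ext (hom_inv_inv j.1)
  · intro i j x
    have := coef_pow hkk ck i.1 j.1 x
    rwa [hom_pow_eq_inv_of Nat.card_pos (pI i) hk1, hom_pow_eq_self_of (pJ j) hk2] at this
  · intro i j x
    have := coef_pow hll cl i.1 j.1 x
    rwa [hom_pow_eq_inv_of Nat.card_pos (pJ j) hl1, hom_pow_eq_self_of (pI i) hl2] at this

open Classical in
theorem card_IdxI (hW : IsSelfNormalizingCyclic W₁ W₂) :
    Fintype.card (IdxI W₁ W₂) = Nat.card W₁ - 1 := by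
  rw [Fintype.card_coe, Finset.card_erase_of_mem (one_mem_dualOf _), card_dualOf_subB hW]

open Classical in
theorem card_IdxJ (hW : IsSelfNormalizingCyclic W₁ W₂) :
    Fintype.card (IdxJ W₁ W₂) = Nat.card W₂ - 1 := by
  rw [Fintype.card_coe, Finset.card_erase_of_mem (one_mem_dualOf _), card_dualOf_subA hW]


open Classical in
/-- an element as an optional member of a finset. -/
noncomputable def toOpt {α : Type*} (S : Finset α) (a : α) : Option {x // x ∈ S} :=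
  if h : a ∈ S then some ⟨a, h⟩ else none

theorem toOpt_of_mem {α : Type*} {S : Finset α} {a : α} (h : a ∈ S) : toOpt S a = some ⟨a, h⟩ :=
  dif_pos h

theorem toOpt_of_not_mem {α : Type*} {S : Finset α} {a : α} (h : a ∉ S) : toOpt S a = none :=
  dif_neg h

theorem toOpt_erase_inj {α : Type*} [DecidableEq α] {S : Finset α} {o a b : α} (ha : a ∈ S)
    (hb : b ∈ S) (h : toOpt (S.erase o) a = toOpt (S.erase o) b) : a = b := by
  by_cases h1 : a = o <;> by_cases h2 : b = o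
  · rw [h1, h2]
  · rw [toOpt_of_not_mem (by simp [h1]), toOpt_of_mem (Finset.mem_erase.2 ⟨h2, hb⟩)] at h
    exact absurd h (by simp)
  · rw [toOpt_of_mem (Finset.mem_erase.2 ⟨h1, ha⟩), toOpt_of_not_mem (by simp [h2])] at h
    exact absurd h (by simp)
  · rw [toOpt_of_mem (Finset.mem_erase.2 ⟨h1, ha⟩), toOpt_of_mem (Finset.mem_erase.2 ⟨h2, hb⟩)] at h
    exact congrArg Subtype.val (Option.some.inj h)

open Classical in
/-- Existence of the cyclic TI family. -/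
theorem exists_family (hW : IsSelfNormalizingCyclic W₁ W₂) (hodd : Odd (Nat.card ↥(W₁ ⊔ W₂))) :
    ∃ χ : (↥(W₁ ⊔ W₂) →* ℂˣ) → (G → ℂ), IsCyclicTIFamily W₁ W₂ χ := by
  let _ : Fintype (IrrCharacter G) := Fintype.ofFinite _
  obtain ⟨o1, o2⟩ := odd_cards hW hodd
  have hcop := coprime_card_snc hW
  have t1 := three_le_card hW.1 o1
  have t2 := three_le_card hW.2.1 o2
  obtain ⟨νI, νJ, σI, σJ, harr⟩ := exists_isArr hW hodd
  have cI := card_IdxI hW
  have cJ := card_IdxJ hW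
  have nI : Nonempty (IdxI W₁ W₂) := Fintype.card_pos_iff.1 (by omega)
  have nJ : Nonempty (IdxJ W₁ W₂) := Fintype.card_pos_iff.1 (by omega)
  have hbig : 4 ≤ Fintype.card (IdxJ W₁ W₂) ∨ 4 ≤ Fintype.card (IdxI W₁ W₂) := by
    rw [cI, cJ]
    by_contra hcon
    push Not at hcon
    obtain ⟨a, ha⟩ := o1
    obtain ⟨b, hb⟩ := o2
    have e1 : Nat.card W₁ = 3 := by omega
    have e2 : Nat.card W₂ = 3 := by omega
    rw [e1, e2] at hcop
    exact absurd hcop (by decide)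
  obtain ⟨Xp, Yp, Zp, s, t, r, hs, ht, hr, hγ, hXinj, hYinj, hXY, hZX, hZY, hZinj⟩ :=
    harr.main hbig
  set triv : IrrCharacter G := ⟨fun _ => 1, isIrr_one⟩ with htriv
  have hc0 : ∀ (i : IdxI W₁ W₂) (j : IdxJ W₁ W₂), coef i.1 j.1 triv = 0 := by
    intro i j
    have e : ((coef i.1 j.1 triv : ℤ) : ℂ) = 0 := by
      rw [← coef_spec]
      exact classInner_gam_one hW (Finset.mem_erase.1 i.2).2 (Finset.mem_erase.1 j.2).2
        (Finset.mem_erase.1 i.2).1 (Finset.mem_erase.1 j.2).1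
    exact_mod_cast e
  obtain ⟨i₀⟩ := nI
  obtain ⟨j₀⟩ := nJ
  have hXo : ∀ i, Xp i ≠ triv := by
    intro i h
    have e := hγ i j₀ (Xp i)
    rw [if_pos rfl, if_neg (hXY i j₀), if_neg (hZX i j₀ i).symm, h, hc0] at e
    rcases hs i with h' | h' <;> rw [h'] at e <;> simp at e
  have hYo : ∀ j, Yp j ≠ triv := by
    intro j h
    have e := hγ i₀ j (Yp j)
    rw [if_pos rfl, if_neg (hXY i₀ j).symm, if_neg (hZY i₀ j j).symm, h, hc0] at e
    rcases ht j with h' | h' <;> rw [h'] at e <;> simp at e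
  have hZo : ∀ i j, Zp i j ≠ triv := by
    intro i j h
    have e := hγ i j (Zp i j)
    rw [if_pos rfl, if_neg (hZX i j i), if_neg (hZY i j j), h, hc0] at e
    rcases hr i j with h' | h' <;> rw [h'] at e <;> simp at e
  have hPinj : Function.Injective (mkP triv Xp Yp Zp) :=
    mkP_injective hXinj hYinj hXY hZX hZY hZinj hXo hYo hZo
  have hεs := mkP_sign hs ht hr
  have hc := comm_of_snc hW
  have hAB := subA_inf_subB hW.2.2.1
  have hsup := subA_sup_subB (W₁ := W₁) (W₂ := W₂)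
  choose decL hL decR hR hdec using exists_decomp hc (subA W₁ W₂) (subB W₁ W₂) hAB hsup
  have hdec' : ∀ φ ∈ dualOf (subB W₁ W₂), ∀ ψ ∈ dualOf (subA W₁ W₂),
      decL (φ * ψ) = φ ∧ decR (φ * ψ) = ψ := by
    intro φ hφ ψ hψ
    exact mul_injOn_dualOf _ _ hsup (hL _) hφ (hR _) hψ (hdec (φ * ψ)).symm
  let idx : (↥(W₁ ⊔ W₂) →* ℂˣ) → Option (IdxI W₁ W₂) × Option (IdxJ W₁ W₂) := fun ω =>
    (toOpt _ (decL ω), toOpt _ (decR ω))
  have idx_inj : Function.Injective idx := by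
    intro ω ω' h
    have h1 := toOpt_erase_inj (hL ω) (hL ω') (congrArg Prod.fst h)
    have h2 := toOpt_erase_inj (hR ω) (hR ω') (congrArg Prod.snd h)
    rw [hdec ω, hdec ω', h1, h2]
  have idx_mul : ∀ φ ∈ dualOf (subB W₁ W₂), ∀ ψ ∈ dualOf (subA W₁ W₂),
      idx (φ * ψ) = (toOpt _ φ, toOpt _ ψ) := by
    intro φ hφ ψ hψ
    obtain ⟨e1, e2⟩ := hdec' φ hφ ψ hψ
    simp only [idx, e1, e2]
  have oB := one_mem_dualOf (subB W₁ W₂)
  have oA := one_mem_dualOf (subA W₁ W₂)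
  have nB : toOpt ((dualOf (subB W₁ W₂)).erase 1) 1 = none := toOpt_of_not_mem (by simp)
  have nA : toOpt ((dualOf (subA W₁ W₂)).erase 1) 1 = none := toOpt_of_not_mem (by simp)
  have idx_one : idx 1 = (none, none) := by
    have := idx_mul 1 oB 1 oA
    rwa [hom_one_mul, nB, nA] at this
  have idx_left : ∀ i : IdxI W₁ W₂, idx i.1 = (some i, none) := by
    intro i
    have := idx_mul i.1 (Finset.mem_erase.1 i.2).2 1 oA
    rwa [hom_mul_one, nA, toOpt_of_mem i.2] at this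
  have idx_right : ∀ j : IdxJ W₁ W₂, idx j.1 = (none, some j) := by
    intro j
    have := idx_mul 1 oB j.1 (Finset.mem_erase.1 j.2).2
    rwa [hom_one_mul, nB, toOpt_of_mem j.2] at this
  have idx_both : ∀ (i : IdxI W₁ W₂) (j : IdxJ W₁ W₂), idx (i.1 * j.1) = (some i, some j) := by
    intro i j
    have := idx_mul i.1 (Finset.mem_erase.1 i.2).2 j.1 (Finset.mem_erase.1 j.2).2
    rwa [toOpt_of_mem i.2, toOpt_of_mem j.2] at this
  let χ : (↥(W₁ ⊔ W₂) →* ℂˣ) → (G → ℂ) := fun ω =>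
    ((mkP 1 (fun i => -s i) (fun j => -t j) r (idx ω) : ℤ) : ℂ) • (mkP triv Xp Yp Zp (idx ω)).1
  have hχ1 : χ 1 = fun _ => 1 := by
    simp only [χ, idx_one, mkP, htriv]
    simp
  have hχL : ∀ i : IdxI W₁ W₂, χ i.1 = -((s i : ℂ) • (Xp i : G → ℂ)) := by
    intro i
    simp only [χ, idx_left, mkP]
    simp
  have hχR : ∀ j : IdxJ W₁ W₂, χ j.1 = -((t j : ℂ) • (Yp j : G → ℂ)) := by
    intro j
    simp only [χ, idx_right, mkP]
    simp
  have hχB : ∀ (i : IdxI W₁ W₂) (j : IdxJ W₁ W₂),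
      χ (i.1 * j.1) = (r i j : ℂ) • (Zp i j : G → ℂ) := by
    intro i j
    simp only [χ, idx_both, mkP]
  have hirr : ∀ ω, IsIrrCharacter G (χ ω) ∨ IsIrrCharacter G (-χ ω) := by
    intro ω
    rcases hεs (idx ω) with h | h
    · left
      simp only [χ, h]
      simpa using (mkP triv Xp Yp Zp (idx ω)).2
    · right
      simp only [χ, h]
      simpa using (mkP triv Xp Yp Zp (idx ω)).2
  have hcl : ∀ ω, IsClassFunction G (χ ω) := fun ω =>
    IsClassFunction.smul _ (IsIrrCharacter.isClassFunction (mkP triv Xp Yp Zp (idx ω)).2)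
  have horth : ∀ ω ω', classInner (χ ω) (χ ω') = if ω = ω' then 1 else 0 := by
    intro ω ω'
    simp only [χ]
    rw [classInner_smul_left, classInner_smul_right]
    by_cases h : ω = ω'
    · subst h
      rw [if_pos rfl, classInner_irr_self (mkP triv Xp Yp Zp (idx ω)).2]
      rcases hεs (idx ω) with h | h <;> rw [h] <;> simp
    · rw [if_neg h, classInner_irr_ne (mkP triv Xp Yp Zp (idx ω)).2 (mkP triv Xp Yp Zp (idx ω')).2
        (fun h' => h (idx_inj (hPinj (Subtype.ext h'))))]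
      simp
  have hind : ∀ φ ψ : ↥(W₁ ⊔ W₂) →* ℂˣ, φ ≠ 1 → ψ ≠ 1 → φ ∈ dualOf (subB W₁ W₂) →
      ψ ∈ dualOf (subA W₁ W₂) →
      indFun (W₁ ⊔ W₂) (alphaFun φ ψ) = χ 1 - χ φ - χ ψ + χ (φ * ψ) := by
    intro φ ψ h1 h2 hφ hψ
    have e1 := hχL ⟨φ, Finset.mem_erase.2 ⟨h1, hφ⟩⟩
    have e2 := hχR ⟨ψ, Finset.mem_erase.2 ⟨h2, hψ⟩⟩
    have e3 := hχB ⟨φ, Finset.mem_erase.2 ⟨h1, hφ⟩⟩ ⟨ψ, Finset.mem_erase.2 ⟨h2, hψ⟩⟩
    have e4 := hγ ⟨φ, Finset.mem_erase.2 ⟨h1, hφ⟩⟩ ⟨ψ, Finset.mem_erase.2 ⟨h2, hψ⟩⟩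
    simp only at e1 e2 e3 e4
    have e5 : gam φ ψ = -χ φ - χ ψ + χ (φ * ψ) := by
      rw [gam_expansion, e1, e2, e3]
      simp only [e4]
      push_cast
      simp only [add_smul, Finset.sum_add_distrib, mul_ite, mul_one, mul_zero, ite_smul, zero_smul,
        Finset.sum_ite_eq', Finset.mem_univ, if_true]
      abel
    have e6 : indFun (W₁ ⊔ W₂) (alphaFun φ ψ) = gam φ ψ + fun _ => 1 := by
      rw [gam, sub_add_cancel]
    rw [e6, e5, hχ1]
    abel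
  refine ⟨χ, hirr, fun ω ω' => ?_, hχ1, eq_on_of hW χ hcl horth hind, ?_⟩
  · rw [horth]
    congr
  intro φ ψ h1 h2 h3 h4
  have := hind φ ψ h1 h2 (mem_dualOf_subB.2 h3) (mem_dualOf_subA.2 h4)
  rw [hχ1] at this
  exact this

end Cfsg.Agent.Lib.Helper3.CycEx
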