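import Mathlib

set_option autoImplicit false

/-!
# Basic tools on representations over a general field
(port of `Lib/Helper3/Rep.lean`)
-/

namespace Cfsg.Agent.Lib.Helper3.K

open Module Representation

section Monoid

variable {k : Type*} [Field k] {G : Type*} [Monoid G] {V W : Type*} [AddCommGroup V] [Module k V]
  [AddCommGroup W] [Module k W]

/-- `p` is a `ρ`-invariant submodule. -/
def Inv (ρ : Representation k G V) (p : Submodule k V) : Prop := ∀ g, p ≤ p.comap (ρ g)

theorem Inv.apply_mem {ρ : Representation k G V} {p : Submodule k V} (h : Inv ρ p) (g : G) {v : V}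
    (hv : v ∈ p) : ρ g v ∈ p := h g hv

theorem inv_top (ρ : Representation k G V) : Inv ρ ⊤ := fun _ _ _ => trivial

theorem inv_bot (ρ : Representation k G V) : Inv ρ ⊥ := fun g v hv => by
  simp only [Submodule.mem_bot] at hv
  simp [hv]

/-- Concrete criterion for irreducibility. -/
theorem isIrreducible_iff (ρ : Representation k G V) :
    ρ.IsIrreducible ↔ Nontrivial V ∧ ∀ p : Submodule k V, Inv ρ p → p = ⊥ ∨ p = ⊤ := by
  constructor
  · intro h
    refine ⟨?_, fun p hp => ?_⟩
    · by_contra hV
      rw [not_nontrivial_iff_subsingleton] at hV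
      obtain ⟨a, b, hab⟩ := h.toNontrivial
      apply hab
      apply Subrepresentation.toSubmodule_injective
      exact Subsingleton.elim _ _
    · rcases h.eq_bot_or_eq_top (⟨p, fun g v hv => hp g hv⟩ : Subrepresentation ρ) with h1 | h1
      · left; exact congrArg Subrepresentation.toSubmodule h1
      · right; exact congrArg Subrepresentation.toSubmodule h1
  · rintro ⟨hV, h⟩
    refine { exists_pair_ne := ⟨⊥, ⊤, ?_⟩, eq_bot_or_eq_top := fun S => ?_ }
    · intro hbt
      have : (⊥ : Submodule k V) = ⊤ := congrArg Subrepresentation.toSubmodule hbt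
      exact bot_ne_top this
    · rcases h S.toSubmodule (fun g v hv => S.apply_mem_toSubmodule g hv) with h1 | h1
      · left; exact Subrepresentation.toSubmodule_injective h1
      · right; exact Subrepresentation.toSubmodule_injective h1

theorem isIrreducible_of_equiv {ρ : Representation k G V} {σ : Representation k G W}
    (φ : ρ.Equiv σ) (h : ρ.IsIrreducible) : σ.IsIrreducible := by
  rw [isIrreducible_iff] at h ⊢
  obtain ⟨hV, h⟩ := h
  set e : V ≃ₗ[k] W := φ.toLinearEquiv with he
  have hint : ∀ g v, e (ρ g v) = σ g (e v) := fun g v =>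
    IntertwiningMap.isIntertwining ρ σ φ.toIntertwiningMap g v
  refine ⟨e.symm.toEquiv.nontrivial, fun p hp => ?_⟩
  have hinv : Inv ρ (p.comap e.toLinearMap) := by
    intro g v hv
    simp only [Submodule.mem_comap, LinearEquiv.coe_coe] at hv ⊢
    rw [hint]
    exact hp g hv
  rcases h _ hinv with h1 | h1
  · left
    rw [eq_bot_iff]
    intro w hw
    have : e.symm w ∈ p.comap e.toLinearMap := by
      simp only [Submodule.mem_comap, LinearEquiv.coe_coe, LinearEquiv.apply_symm_apply]
      exact hw
    rw [h1, Submodule.mem_bot] at this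
    rw [Submodule.mem_bot]
    exact e.symm.map_eq_zero_iff.mp this
  · right
    rw [eq_top_iff]
    intro w _
    have : e.symm w ∈ p.comap e.toLinearMap := by
      rw [h1]; trivial
    simpa only [Submodule.mem_comap, LinearEquiv.coe_coe, LinearEquiv.apply_symm_apply] using this

/-- Transport of a representation along a linear equivalence. -/
noncomputable def transport (ρ : Representation k G V) (e : V ≃ₗ[k] W) : Representation k G W where
  toFun g := e.conj (ρ g)
  map_one' := by ext; simp [LinearEquiv.conj_apply]
  map_mul' x y := by ext; simp [LinearEquiv.conj_apply]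

theorem transport_apply (ρ : Representation k G V) (e : V ≃ₗ[k] W) (g : G) (w : W) :
    transport ρ e g w = e (ρ g (e.symm w)) := by
  simp [transport, LinearEquiv.conj_apply]

/-- The tautological equivalence between a representation and its transport. -/
noncomputable def transportEquiv (ρ : Representation k G V) (e : V ≃ₗ[k] W) :
    ρ.Equiv (transport ρ e) :=
  Representation.Equiv.mk e (fun g => by ext v; simp [transport_apply])

theorem char_transport (ρ : Representation k G V) (e : V ≃ₗ[k] W) :
    (transport ρ e).character = ρ.character :=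
  (char_iso (transportEquiv ρ e)).symm

theorem char_prod [FiniteDimensional k V] [FiniteDimensional k W]
    (ρ : Representation k G V) (σ : Representation k G W) :
    (ρ.prod σ).character = ρ.character + σ.character := by
  ext g
  exact LinearMap.trace_prodMap' (ρ g) (σ g)

/-- The sub-representation on an invariant submodule. -/
noncomputable abbrev subrep (ρ : Representation k G V) (p : Submodule k V) (hp : Inv ρ p) :
    Representation k G p := ρ.subrepresentation p hp

@[simp] theorem subrep_apply_coe (ρ : Representation k G V) (p : Submodule k V) (hp : Inv ρ p)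
    (g : G) (v : p) : ((subrep ρ p hp g v : p) : V) = ρ g v := rfl

/-- A representation is the product of two complementary invariant submodules. -/
noncomputable def equivOfIsCompl (ρ : Representation k G V) (p q : Submodule k V) (hp : Inv ρ p)
    (hq : Inv ρ q) (h : IsCompl p q) : ((subrep ρ p hp).prod (subrep ρ q hq)).Equiv ρ :=
  Representation.Equiv.mk (Submodule.prodEquivOfIsCompl p q h) (fun g => by
    ext v <;> simp [Representation.prod])

theorem char_eq_add_of_isCompl [FiniteDimensional k V] (ρ : Representation k G V)
    (p q : Submodule k V) (hp : Inv ρ p) (hq : Inv ρ q) (h : IsCompl p q) :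
    ρ.character = (subrep ρ p hp).character + (subrep ρ q hq).character := by
  rw [← char_iso (equivOfIsCompl ρ p q hp hq h), char_prod]

/-- Irreducibility of a sub-representation in terms of invariant submodules of the big space. -/
theorem subrep_isIrreducible_iff (ρ : Representation k G V) (p : Submodule k V) (hp : Inv ρ p) :
    (subrep ρ p hp).IsIrreducible ↔ p ≠ ⊥ ∧ ∀ q : Submodule k V, q ≤ p → Inv ρ q → q = ⊥ ∨ q = p := by
  rw [isIrreducible_iff, Submodule.nontrivial_iff_ne_bot]
  refine and_congr_right fun _ => ⟨fun h q hqp hq => ?_, fun h q hq => ?_⟩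
  · have hinv : Inv (subrep ρ p hp) (q.comap p.subtype) := by
      intro g v hv
      simp only [Submodule.mem_comap] at hv ⊢
      exact hq g hv
    rcases h _ hinv with h1 | h1
    · left
      rw [eq_bot_iff]
      intro v hv
      have : (⟨v, hqp hv⟩ : p) ∈ q.comap p.subtype := hv
      rw [h1, Submodule.mem_bot] at this
      simpa using congrArg Subtype.val this
    · right
      apply le_antisymm hqp
      intro v hv
      have : (⟨v, hv⟩ : p) ∈ q.comap p.subtype := by rw [h1]; trivial
      exact this
  · have hinv : Inv ρ (q.map p.subtype) := by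
      rintro g _ ⟨v, hv, rfl⟩
      exact ⟨subrep ρ p hp g v, hq g hv, rfl⟩
    rcases h _ (Submodule.map_subtype_le p q) hinv with h1 | h1
    · left
      rw [eq_bot_iff]
      intro v hv
      have : (v : V) ∈ q.map p.subtype := ⟨v, hv, rfl⟩
      rw [h1, Submodule.mem_bot] at this
      rw [Submodule.mem_bot]
      exact Subtype.ext this
    · right
      rw [eq_top_iff]
      intro v _
      have : (v : V) ∈ q.map p.subtype := by rw [h1]; exact v.2
      obtain ⟨w, hw, hwv⟩ := this
      have : w = v := Subtype.ext hwv
      exact this ▸ hw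

/-- Every nonzero invariant submodule contains an irreducible invariant submodule. -/
theorem exists_irreducible_le [FiniteDimensional k V] (ρ : Representation k G V)
    (q : Submodule k V) (hq : Inv ρ q) (hq0 : q ≠ ⊥) :
    ∃ (p : Submodule k V) (hp : Inv ρ p), p ≤ q ∧ (subrep ρ p hp).IsIrreducible := by
  have hne : {p : Submodule k V | Inv ρ p ∧ p ≤ q ∧ p ≠ ⊥}.Nonempty := ⟨q, hq, le_rfl, hq0⟩
  obtain ⟨p, ⟨hp, hpq, hp0⟩, hmin⟩ := (wellFounded_lt (α := Submodule k V)).has_min _ hne
  refine ⟨p, hp, hpq, (subrep_isIrreducible_iff ρ p hp).mpr ⟨hp0, fun r hrp hr => ?_⟩⟩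
  by_cases hr0 : r = ⊥
  · exact Or.inl hr0
  · right
    by_contra hne
    exact hmin r ⟨hr, hrp.trans hpq, hr0⟩ (lt_of_le_of_ne hrp hne)

end Monoid

section Group

variable {k : Type*} [Field k] [CharZero k] {G : Type*} [Group G] [Finite G] {V : Type*} [AddCommGroup V] [Module k V]

/-- Maschke's theorem for invariant submodules. -/
theorem exists_inv_isCompl (ρ : Representation k G V) (p : Submodule k V) (hp : Inv ρ p) :
    ∃ q : Submodule k V, Inv ρ q ∧ IsCompl p q := by
  have : NeZero (Nat.card G : k) := ⟨by exact_mod_cast Nat.card_pos.ne'⟩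
  have hss : IsSemisimpleRepresentation ρ := inferInstance
  obtain ⟨S, hS⟩ := hss.exists_isCompl (⟨p, fun g v hv => hp g hv⟩ : Subrepresentation ρ)
  refine ⟨S.toSubmodule, fun g v hv => S.apply_mem_toSubmodule g hv, ?_⟩
  rw [isCompl_iff, disjoint_iff, codisjoint_iff] at hS ⊢
  exact ⟨congrArg Subrepresentation.toSubmodule hS.1, congrArg Subrepresentation.toSubmodule hS.2⟩

/-- The irreducible invariant submodules span everything. -/
theorem sSup_irreducible_eq_top [FiniteDimensional k V] (ρ : Representation k G V) :
    sSup {p : Submodule k V | ∃ hp : Inv ρ p, (subrep ρ p hp).IsIrreducible} = ⊤ := by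
  set S := sSup {p : Submodule k V | ∃ hp : Inv ρ p, (subrep ρ p hp).IsIrreducible} with hS
  have hSinv : Inv ρ S := by
    intro g
    rw [hS]
    apply sSup_le
    rintro p ⟨hp, hirr⟩
    intro v hv
    have hle : p ≤ sSup {p : Submodule k V | ∃ hp : Inv ρ p, (subrep ρ p hp).IsIrreducible} :=
      le_sSup ⟨hp, hirr⟩
    exact hle (hp g hv)
  obtain ⟨q, hq, hc⟩ := exists_inv_isCompl ρ S hSinv
  by_cases hq0 : q = ⊥
  · rw [hq0] at hc
    simpa using hc.sup_eq_top
  · exfalso
    obtain ⟨p, hp, hpq, hirr⟩ := exists_irreducible_le ρ q hq hq0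
    have hpS : p ≤ S := le_sSup ⟨hp, hirr⟩
    have : p ≤ ⊥ := hc.disjoint hpS hpq
    exact ((subrep_isIrreducible_iff ρ p hp).mp hirr).1 (eq_bot_iff.mpr this)

end Group

end Cfsg.Agent.Lib.Helper3.K
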