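import Mathlib
import Cfsg.Prelude.Def_Characters
import Cfsg.Agent.Lib.Helper3.RepK
import Cfsg.Agent.Lib.Helper3.Brauer4

set_option autoImplicit false

/-!
# Characters afforded by representations over a subfield
-/

namespace Cfsg.Agent.Lib.Helper3.K

open Module Representation
open scoped ComplexConjugate

universe u v

section defs

variable {k : Type*} [Field k] (ι : k →+* ℂ) {G : Type*} [Group G]

/-- `χ` is afforded by a representation over `k`. -/
def KChar (χ : G → ℂ) : Prop :=
  ∃ (n : ℕ) (ρ : Representation k G (Fin n → k)), ∀ g, ι (ρ.character g) = χ g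

/-- `χ` is afforded by an irreducible representation over `k`. -/
def KIrr (χ : G → ℂ) : Prop :=
  ∃ (n : ℕ) (ρ : Representation k G (Fin n → k)), ρ.IsIrreducible ∧ ∀ g, ι (ρ.character g) = χ g

theorem KIrr.kChar {χ : G → ℂ} (h : KIrr ι χ) : KChar ι χ := by
  obtain ⟨n, ρ, -, h⟩ := h
  exact ⟨n, ρ, h⟩

theorem kChar_of_rep {V : Type*} [AddCommGroup V] [Module k V] [FiniteDimensional k V]
    (ρ : Representation k G V) : KChar ι (fun g => ι (ρ.character g)) :=
  ⟨finrank k V, transport ρ (finBasis k V).equivFun, fun g => by rw [char_transport]⟩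

theorem kIrr_of_rep {V : Type*} [AddCommGroup V] [Module k V] [FiniteDimensional k V]
    (ρ : Representation k G V) (h : ρ.IsIrreducible) : KIrr ι (fun g => ι (ρ.character g)) :=
  ⟨finrank k V, transport ρ (finBasis k V).equivFun,
    isIrreducible_of_equiv (transportEquiv _ _) h, fun g => by rw [char_transport]⟩

theorem KChar.add {χ ψ : G → ℂ} (h1 : KChar ι χ) (h2 : KChar ι ψ) : KChar ι (χ + ψ) := by
  obtain ⟨n, ρ, h1⟩ := h1
  obtain ⟨m, σ, h2⟩ := h2
  have := kChar_of_rep ι (ρ.prod σ)
  convert this using 1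
  ext g
  rw [char_prod, Pi.add_apply, Pi.add_apply, map_add, h1, h2]

theorem char_eq_zero_of_subsingleton {V : Type*} [AddCommGroup V]
    [Module k V] [Subsingleton V] (ρ : Representation k G V) : ρ.character = 0 := by
  ext g
  have : ρ g = 0 := Subsingleton.elim _ _
  simp [Representation.character, this]

theorem kChar_zero : KChar ι (0 : G → ℂ) := by
  refine ⟨0, 1, fun g => ?_⟩
  rw [char_eq_zero_of_subsingleton]
  simp

theorem KChar.nsmul {χ : G → ℂ} (h : KChar ι χ) (n : ℕ) : KChar ι (n • χ) := by
  induction n with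
  | zero => rw [zero_smul]; exact kChar_zero ι
  | succ n ih => rw [succ_nsmul]; exact ih.add ι h

theorem KChar.sum {α : Type*} (s : Finset α) (f : α → G → ℂ) (h : ∀ a ∈ s, KChar ι (f a)) :
    KChar ι (∑ a ∈ s, f a) := by
  classical
  induction s using Finset.induction_on with
  | empty => simpa using kChar_zero ι
  | insert a s ha ih =>
    rw [Finset.sum_insert ha]
    exact (h a (Finset.mem_insert_self a s)).add ι
      (ih fun b hb => h b (Finset.mem_insert_of_mem hb))

/-- Base change to `ℂ`. -/
theorem KChar.exists_rep {χ : G → ℂ} (h : KChar ι χ) :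
    ∃ (n : ℕ) (σ : Representation ℂ G (Fin n → ℂ)), σ.character = χ ∧
      ∀ g i j, LinearMap.toMatrix' (σ g) i j ∈ Set.range ι := by
  obtain ⟨n, ρ, h⟩ := h
  let ρ' : Representation ℂ G (Fin n → ℂ) :=
    { toFun := fun g => Matrix.toLin' ((LinearMap.toMatrix' (ρ g)).map ι)
      map_one' := by
        rw [map_one, LinearMap.toMatrix'_one, Matrix.map_one ι (map_zero ι) (map_one ι),
          Matrix.toLin'_one]
        rfl
      map_mul' := by
        intro x y
        rw [map_mul, LinearMap.toMatrix'_mul, Matrix.map_mul, Matrix.toLin'_mul]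
        rfl }
  refine ⟨n, ρ', ?_, fun g i j => ?_⟩
  · ext g
    rw [← h]
    show LinearMap.trace ℂ _ (Matrix.toLin' ((LinearMap.toMatrix' (ρ g)).map ι)) =
      ι (ρ.character g)
    rw [Matrix.trace_toLin'_eq, ← AddMonoidHom.map_trace ι, Representation.character,
      ← Matrix.trace_toLin'_eq, Matrix.toLin'_toMatrix']
  · show LinearMap.toMatrix' (Matrix.toLin' ((LinearMap.toMatrix' (ρ g)).map ι)) i j ∈ _
    rw [LinearMap.toMatrix'_toLin']
    exact ⟨_, rfl⟩

theorem KChar.isCharacter {χ : G → ℂ} (h : KChar ι χ) : IsCharacter G χ := by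
  obtain ⟨n, σ, h, -⟩ := h.exists_rep ι
  exact ⟨n, σ, h⟩

end defs

section decomp

theorem mem_closure_aux {k : Type v} [Field k] (ι : k →+* ℂ) {G : Type u} [Group G] [Finite G]
    (n : ℕ) :
    ∀ (V : Type v) [AddCommGroup V] [Module k V] [FiniteDimensional k V]
      (ρ : Representation k G V), finrank k V = n →
      (fun g => ι (ρ.character g)) ∈ AddSubgroup.closure {ψ : G → ℂ | KIrr ι ψ} := by
  classical
  have : CharZero k := ι.charZero
  induction n using Nat.strong_induction_on with
  | _ n ih =>
    intro V _ _ _ ρ hn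
    by_cases hV : Subsingleton V
    · rw [char_eq_zero_of_subsingleton]
      have h0 : (fun g : G => ι ((0 : G → k) g)) = 0 := by ext g; simp
      rw [h0]
      exact (AddSubgroup.closure {ψ : G → ℂ | KIrr ι ψ}).zero_mem
    · rw [not_subsingleton_iff_nontrivial] at hV
      obtain ⟨p, hp, -, hirr⟩ := exists_irreducible_le ρ ⊤ (inv_top ρ) top_ne_bot
      obtain ⟨q, hq, hc⟩ := exists_inv_isCompl ρ p hp
      have hp0 : 0 < finrank k p := by
        have := ((isIrreducible_iff _).mp hirr).1
        exact Module.finrank_pos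
      have hsum := Submodule.finrank_add_eq_of_isCompl hc
      have h1 := ih (finrank k q) (by omega) q (subrep ρ q hq) rfl
      have h2 : (fun g => ι ((subrep ρ p hp).character g)) ∈
          AddSubgroup.closure {ψ : G → ℂ | KIrr ι ψ} :=
        AddSubgroup.subset_closure (kIrr_of_rep ι _ hirr)
      have h3 := AddSubgroup.add_mem _ h2 h1
      convert h3 using 1
      ext g
      rw [char_eq_add_of_isCompl ρ p q hp hq hc]
      simp

theorem KChar.mem_closure {k : Type*} [Field k] (ι : k →+* ℂ) {G : Type*} [Group G] [Finite G]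
    {χ : G → ℂ} (h : KChar ι χ) : χ ∈ AddSubgroup.closure {ψ : G → ℂ | KIrr ι ψ} := by
  obtain ⟨n, ρ, h⟩ := h
  have := mem_closure_aux ι _ _ ρ rfl
  convert this using 1
  ext g
  rw [h]

end decomp

section orth

variable {k : Type*} [Field k] (ι : k →+* ℂ) {G : Type*} [Group G] [Fintype G]

theorem KIrr.classInner_eq_zero {χ ψ : G → ℂ} (h1 : KIrr ι χ) (h2 : KIrr ι ψ) (hne : χ ≠ ψ) :
    classInner χ ψ = 0 := by
  have hψc := (h2.kChar ι).isCharacter ι
  obtain ⟨n, ρ, hρ, h1⟩ := h1
  obtain ⟨m, σ, hσ, h2⟩ := h2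
  have : CharZero k := ι.charZero
  have hc : (Nat.card G : k) ≠ 0 := by exact_mod_cast Nat.card_pos.ne'
  let _ : Invertible (Nat.card G : k) := invertibleOfNonzero hc
  have hE : IsEmpty (Representation.Equiv σ ρ) := by
    constructor
    intro φ
    apply hne
    ext g
    rw [← h1, ← h2, char_iso φ]
  have h3 := card_inv_mul_sum_char_mul_char_eq_finrank σ ρ
  rw [finrank_zero_of_subsingleton] at h3
  have h4 := congrArg ι h3
  rw [map_mul, map_inv₀, map_natCast, map_sum] at h4
  simp only [map_mul, h1, h2, Nat.cast_zero, map_zero] at h4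
  rw [classInner, ← h4]
  congr 1
  refine Finset.sum_congr rfl fun g _ => ?_
  rw [IsCharacter.apply_inv hψc]

/-- An irreducible complex character in the `ℤ`-span of the `k`-irreducible characters is itself
afforded by a `k`-representation. -/
theorem kIrr_of_mem_closure {χ : G → ℂ} (hχ : IsIrrCharacter G χ)
    (hmem : χ ∈ AddSubgroup.closure {ψ : G → ℂ | KIrr ι ψ}) : KIrr ι χ := by
  classical
  have := Fintype.ofFinite (IrrCharacter G)
  -- step 1
  have h1 : ∃ ψ₀, KIrr ι ψ₀ ∧ classInner χ ψ₀ ≠ 0 := by
    by_contra hcon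
    push Not at hcon
    have h2 : ∀ y ∈ AddSubgroup.closure {ψ : G → ℂ | KIrr ι ψ}, classInner χ y = 0 := by
      intro y hy
      induction hy using AddSubgroup.closure_induction with
      | mem y hy => exact hcon y hy
      | zero => simp [classInner]
      | add a b _ _ ha hb => rw [classInner_add_right, ha, hb, add_zero]
      | neg a _ ha =>
        have : classInner χ (-a) = - classInner χ a := by
          simp [classInner, Finset.sum_neg_distrib]
        rw [this, ha, neg_zero]
    have h3 := h2 χ hmem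
    rw [classInner_irr_self hχ] at h3
    exact one_ne_zero h3
  obtain ⟨ψ₀, hψ₀, hne⟩ := h1
  -- step 2
  have h2 : ∀ y ∈ AddSubgroup.closure {ψ : G → ℂ | KIrr ι ψ},
      ∃ c : ℤ, classInner y ψ₀ = c * classInner ψ₀ ψ₀ := by
    intro y hy
    induction hy using AddSubgroup.closure_induction with
    | mem y hy =>
      by_cases hyψ : y = ψ₀
      · exact ⟨1, by rw [hyψ]; simp⟩
      · exact ⟨0, by rw [KIrr.classInner_eq_zero ι hy hψ₀ hyψ]; simp⟩
    | zero => exact ⟨0, by simp [classInner]⟩
    | add a b _ _ ha hb =>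
      obtain ⟨c, hc⟩ := ha
      obtain ⟨d, hd⟩ := hb
      exact ⟨c + d, by rw [classInner_add_left, hc, hd]; push_cast; ring⟩
    | neg a _ ha =>
      obtain ⟨c, hc⟩ := ha
      have : classInner (-a) ψ₀ = - classInner a ψ₀ := by
        simp [classInner, Finset.sum_neg_distrib]
      exact ⟨-c, by rw [this, hc]; push_cast; ring⟩
  obtain ⟨c, hc⟩ := h2 χ hmem
  have hψc : IsCharacter G ψ₀ := (hψ₀.kChar ι).isCharacter ι
  -- multiplicities
  have hm : ∀ φ : IrrCharacter G, ∃ n : ℕ, classInner ψ₀ φ = n := fun φ =>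
    IsCharacter.classInner_eq_natCast hψc (IsIrrCharacter.isCharacter φ.2)
  choose m hm using hm
  have hm' : ∀ φ : IrrCharacter G, classInner (φ : G → ℂ) ψ₀ = m φ := by
    intro φ
    rw [← classInner_conj_symm, hm]
    simp
  have hN : classInner ψ₀ ψ₀ = ((∑ φ : IrrCharacter G, (m φ) ^ 2 : ℕ) : ℂ) := by
    rw [classInner_eq_sum_coeff (IsCharacter.isClassFunction hψc)]
    push_cast
    refine Finset.sum_congr rfl fun φ _ => ?_
    rw [hm, hm', sq]
  set N := ∑ φ : IrrCharacter G, (m φ) ^ 2 with hNdef
  have hχm := hm' ⟨χ, hχ⟩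
  simp only at hχm
  set a := m ⟨χ, hχ⟩ with ha
  have ha0 : a ≠ 0 := by
    intro h0
    rw [hχm, h0] at hne
    simp at hne
  have haN : a ^ 2 ≤ N :=
    Finset.single_le_sum (f := fun φ => (m φ) ^ 2) (fun _ _ => Nat.zero_le _)
      (Finset.mem_univ (⟨χ, hχ⟩ : IrrCharacter G))
  have hcN : (a : ℤ) = c * N := by
    rw [hχm, hN] at hc
    exact_mod_cast hc
  have hdvd : N ∣ a := by
    have : (N : ℤ) ∣ (a : ℤ) := ⟨c, by rw [hcN]; ring⟩
    exact_mod_cast this
  have hle : N ≤ a := Nat.le_of_dvd (Nat.pos_of_ne_zero ha0) hdvd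
  have ha1 : a = 1 := by
    have : a ^ 2 ≤ a := haN.trans hle
    nlinarith [Nat.pos_of_ne_zero ha0]
  have hN1 : N = 1 := by
    rw [ha1] at haN hle
    omega
  have hirr : IsIrrCharacter G ψ₀ := by
    rw [isIrrCharacter_iff]
    exact ⟨hψc, by rw [hN, hN1]; simp⟩
  have : χ = ψ₀ := by
    by_contra hcon
    exact hne (classInner_irr_ne hχ hirr hcon)
  rw [this]
  exact hψ₀

end orth

section trace

variable {k : Type*} [Field k]

theorem trace_restrict_eq {V : Type*} [AddCommGroup V] [Module k V] [FiniteDimensional k V]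
    (p : Submodule k V) (T e : V →ₗ[k] V) (hT : ∀ v ∈ p, T v ∈ p) (he : ∀ v, e v ∈ p)
    (he' : ∀ v ∈ p, e v = v) :
    LinearMap.trace k p (T.restrict hT) = LinearMap.trace k V (T ∘ₗ e) := by
  have h1 : T.restrict hT = (T.restrict hT ∘ₗ e.codRestrict p he) ∘ₗ p.subtype := by
    ext v
    simp [he' v v.2]
  rw [h1, LinearMap.trace_comp_comm']
  congr 1

theorem trace_pi {α : Type*} [Fintype α] [DecidableEq α] (T : (α → k) →ₗ[k] (α → k)) :
    LinearMap.trace k (α → k) T = ∑ x, T (Pi.single x 1) x := by
  rw [LinearMap.trace_eq_matrix_trace k (Pi.basisFun k α), LinearMap.toMatrix_eq_toMatrix',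
    Matrix.trace]
  refine Finset.sum_congr rfl fun x _ => ?_
  rw [Matrix.diag_apply, LinearMap.toMatrix'_apply]

end trace

section induced

variable {k : Type*} [Field k] {G : Type*} [Group G]

/-- Left translation on functions. -/
def leftFun : Representation k G (G → k) where
  toFun g := LinearMap.funLeft k k (fun x => g⁻¹ * x)
  map_one' := by
    ext f x
    simp [LinearMap.funLeft_apply]
  map_mul' a b := by
    ext f x
    simp [LinearMap.funLeft_apply, mul_assoc]

theorem leftFun_apply (g : G) (f : G → k) (x : G) : leftFun g f x = f (g⁻¹ * x) := rfl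

variable (H : Subgroup G) (lam : H →* kˣ)

/-- The space of the representation induced from a linear character. -/
def indSub : Submodule k (G → k) where
  carrier := {f | ∀ (h : H) (x : G), (lam h : k) * f (x * h) = f x}
  add_mem' := by
    intro f g hf hg h x
    simp only [Pi.add_apply, mul_add, hf h x, hg h x]
  zero_mem' := by intro h x; simp
  smul_mem' := by
    intro c f hf h x
    simp only [Pi.smul_apply, smul_eq_mul]
    rw [mul_left_comm, hf h x]

theorem inv_indSub : Inv (leftFun (k := k)) (indSub H lam) := by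
  intro g f hf h x
  rw [leftFun_apply, leftFun_apply, ← mul_assoc]
  exact hf h (g⁻¹ * x)

variable [Fintype H]

/-- The projector onto `indSub`. -/
noncomputable def indProj : (G → k) →ₗ[k] (G → k) where
  toFun f x := (Nat.card H : k)⁻¹ * ∑ h : H, (lam h : k) * f (x * h)
  map_add' f g := by
    ext x
    simp only [Pi.add_apply, mul_add, Finset.sum_add_distrib]
  map_smul' c f := by
    ext x
    simp only [Pi.smul_apply, smul_eq_mul, RingHom.id_apply, Finset.mul_sum]
    refine Finset.sum_congr rfl fun h _ => ?_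
    ring

theorem indProj_apply (f : G → k) (x : G) :
    indProj H lam f x = (Nat.card H : k)⁻¹ * ∑ h : H, (lam h : k) * f (x * h) := rfl

theorem indProj_mem (f : G → k) : indProj H lam f ∈ indSub H lam := by
  intro h x
  rw [indProj_apply, indProj_apply, mul_left_comm, Finset.mul_sum]
  congr 1
  refine Fintype.sum_equiv (Equiv.mulLeft h) _ _ fun h' => ?_
  simp only [Equiv.coe_mulLeft, map_mul, Units.val_mul, Subgroup.coe_mul, mul_assoc]

theorem indProj_of_mem [CharZero k] {f : G → k} (hf : f ∈ indSub H lam) : indProj H lam f = f := by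
  ext x
  rw [indProj_apply, Finset.sum_congr rfl (fun h _ => hf h x)]
  have hc : (Nat.card H : k) ≠ 0 := by exact_mod_cast Nat.card_pos.ne'
  rw [Finset.sum_const, Finset.card_univ, nsmul_eq_mul, ← Nat.card_eq_fintype_card,
    inv_mul_cancel_left₀ hc]

open Classical in
theorem char_indSub [CharZero k] [Fintype G] (g : G) :
    (subrep (leftFun (k := k) (G := G)) (indSub H lam) (inv_indSub H lam)).character g =
      (Nat.card H : k)⁻¹ * ∑ x : G, if hx : x⁻¹ * g * x ∈ H then (lam ⟨_, hx⟩ : k) else 0 := by
  have h1 : (subrep (leftFun (k := k) (G := G)) (indSub H lam) (inv_indSub H lam)).character g =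
      LinearMap.trace k (indSub H lam) ((leftFun (k := k) g).restrict (inv_indSub H lam g)) := rfl
  rw [h1, trace_restrict_eq (indSub H lam) _ (indProj H lam) _ (indProj_mem H lam)
    (fun f hf => indProj_of_mem H lam hf), trace_pi, Finset.mul_sum]
  refine Finset.sum_congr rfl fun x _ => ?_
  rw [LinearMap.comp_apply, leftFun_apply, indProj_apply]
  congr 1
  split_ifs with hx
  · rw [Finset.sum_eq_single (⟨_, hx⟩ : H)]
    · have : g⁻¹ * x * (x⁻¹ * g * x) = x := by group
      simp [this]
    · intro h _ hne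
      have : g⁻¹ * x * h ≠ x := by
        intro heq
        apply hne
        apply Subtype.ext
        have : (h : G) = x⁻¹ * g * x := by
          rw [eq_inv_mul_of_mul_eq heq]; group
        exact this
      rw [Pi.single_eq_of_ne this, mul_zero]
    · intro h; exact absurd (Finset.mem_univ _) h
  · apply Finset.sum_eq_zero
    intro h _
    have : g⁻¹ * x * h ≠ x := by
      intro heq
      apply hx
      have : (h : G) = x⁻¹ * g * x := by
        rw [eq_inv_mul_of_mul_eq heq]; group
      rw [← this]
      exact h.2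
    rw [Pi.single_eq_of_ne this, mul_zero]

end induced


section main

variable {k : Type*} [Field k] (ι : k →+* ℂ) {G : Type*} [Group G] [Fintype G]

theorem kChar_indFun (H : Subgroup G) (lam : H →* kˣ) :
    KChar ι (indFun H (fun h => ι (lam h))) := by
  classical
  have := Fintype.ofFinite H
  have : CharZero k := ι.charZero
  have h := kChar_of_rep ι (subrep (leftFun (k := k) (G := G)) (indSub H lam) (inv_indSub H lam))
  convert h using 1
  ext g
  rw [char_indSub, indFun_apply, map_mul, map_inv₀, map_natCast, map_sum]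
  congr 1
  refine Finset.sum_congr rfl fun x _ => ?_
  split_ifs with hx
  · rw [extendByZero_apply_mem H _ hx]
  · rw [extendByZero_apply_not_mem H _ hx, map_zero]

theorem kChar_indFun' (hroots : ∀ z : ℂ, z ^ Monoid.exponent G = 1 → z ∈ Set.range ι)
    (H : Subgroup G) (μ : H →* ℂˣ) : KChar ι (indFun H (fun h => (μ h : ℂ))) := by
  have h1 : ∀ h : H, ∃ z : k, ι z = (μ h : ℂ) := by
    intro h
    apply hroots
    rw [← Units.val_pow_eq_pow_val, ← map_pow]
    have : h ^ Monoid.exponent G = 1 := by
      apply Subtype.ext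
      simpa using Monoid.pow_exponent_eq_one (h : G)
    rw [this, map_one, Units.val_one]
  choose z hz using h1
  let f : H →* k :=
    { toFun := z
      map_one' := by
        apply ι.injective
        rw [hz, map_one, map_one, Units.val_one]
      map_mul' := by
        intro a b
        apply ι.injective
        rw [hz, map_mul, map_mul, hz, hz, Units.val_mul] }
  have h2 := kChar_indFun ι H f.toHomUnits
  convert h2 using 3 with h
  rw [MonoidHom.coe_toHomUnits]
  exact (hz h).symm

/-- Brauer: every irreducible complex character is afforded by a representation over any subfield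
containing the `exp(G)`-th roots of unity. -/
theorem kIrr_of_isIrrCharacter (hroots : ∀ z : ℂ, z ^ Monoid.exponent G = 1 → z ∈ Set.range ι)
    {χ : G → ℂ} (hχ : IsIrrCharacter G χ) : KIrr ι χ := by
  apply kIrr_of_mem_closure ι hχ
  obtain ⟨l, -, hl⟩ := IsCharacter.isIndComb_elementary (IsIrrCharacter.isCharacter hχ)
  rw [hl]
  apply AddSubgroup.list_sum_mem
  intro y hy
  obtain ⟨t, -, rfl⟩ := List.mem_map.mp hy
  rw [Int.cast_smul_eq_zsmul]
  apply AddSubgroup.zsmul_mem
  exact (kChar_indFun' ι hroots t.1 t.2.1).mem_closure ι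

theorem kChar_of_isCharacter (hroots : ∀ z : ℂ, z ^ Monoid.exponent G = 1 → z ∈ Set.range ι)
    {χ : G → ℂ} (hχ : IsCharacter G χ) : KChar ι χ := by
  have := Fintype.ofFinite (IrrCharacter G)
  obtain ⟨m, rfl⟩ := IsCharacter.exists_decomp hχ
  apply KChar.sum
  intro ψ _
  exact ((kIrr_of_isIrrCharacter ι hroots ψ.2).kChar ι).nsmul ι _

end main

end Cfsg.Agent.Lib.Helper3.K
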